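import Cfsg.Agent.P24.Dat
import Cfsg.Agent.P24.Cs
import Cfsg.Agent.Y5.Main
import Cfsg.Agent.TC.F22
import Cfsg.Agent.Fi.LcR
import Cfsg.Agent.Fi.I23

/-! # The presented group `Fi₂₄`: the small subgroups -/

set_option autoImplicit false

namespace Cfsg.Agent.P24

open Cfsg.Agent.Fi Cfsg.Agent.TT Cfsg.Agent.TT.Wd Cfsg.Agent.TC Subgroup

/-- the basic letters -/
def bs : List ℕ := [0, 1, 2, 3, 4, 5, 6, 8, 9, 11, 12, 13]

/-- the edges -/
def eds : List (ℕ × ℕ) :=
  [(12, 13), (13, 8), (8, 9), (9, 0), (0, 1), (1, 2), (1, 5), (2, 3), (3, 4), (4, 11), (5, 6)]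

/-- the labels -/
def lab (i j : ℕ) : ℕ := if i = j then 1 else if (i, j) ∈ eds ∨ (j, i) ∈ eds then 3 else 2

/-- word for `l` -/
def lw : List ℕ := pww [8, 9, 0, 1, 2, 3, 5] 9

/-- word for `m` -/
def mw : List ℕ := pww [9, 0, 1, 2, 3, 4, 5] 9

/-- the period of the long relator -/
def cw : List ℕ := [1, 0, 9, 8, 13, 12, 1, 2, 3, 4, 11, 1, 5, 6]

/-- the relations -/
structure Rl {P : Type*} [Group P] (v : ℕ → P) : Prop where
  cox : ∀ i ∈ bs, ∀ j ∈ bs, (v i * v j) ^ lab i j = 1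
  l : v 12 = ev v lw
  m : v 10 = ev v mw
  n : v 7 = ev v (tw u7 0)
  z : ev v cw ^ 17 = 1

theorem ev_pww {P : Type*} [Group P] (v : ℕ → P) (a : List ℕ) : ∀ n, ev v (pww a n) = ev v a ^ n
  | 0 => by simp [pww, ev]
  | n + 1 => by rw [pww, ev_append, ev_pww v a n, pow_succ']

theorem evl_mp' {P : Type*} [Group P] (v : ℕ → P) (f : ℕ → ℕ) :
    ∀ l : List ℕ, evl (fun i => v (f i)) l = ev v (l.map f).reverse
  | [] => rfl
  | i :: l => by rw [evl, evl_mp' v f l, List.map_cons, List.reverse_cons, ev_append]; simp [ev]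

variable {P : Type} {G : Type*} [Group P] [Group G] {φ : P →* G} {v : ℕ → P} {β : ℕ → G}
  {H : Subgroup P} {D : Set G} {i j : ℕ} {w w' ls : List ℕ}

theorem Rl.sq (r : Rl v) (h : i ∈ bs) : v i * v i = 1 := by simpa [lab] using r.cox i h i h

theorem Rl.cm (r : Rl v) (hi : i ∈ bs) (hj : j ∈ bs) (h : lab i j = 2) : Commute (v i) (v j) :=
  Y5.comm_of (r.sq hi) (r.sq hj) (h ▸ r.cox i hi j hj)

/-- a Coxeter relator -/
def cxk : List ℕ → Bool
  | i :: j :: w => decide (i ∈ bs) && decide (j ∈ bs) && weq (i :: j :: w) (pww [i, j] (lab i j))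
  | _ => false

theorem Rl.cxk (r : Rl v) : ∀ {w : List ℕ}, cxk w = true → ev v w = 1
  | i :: j :: w, h => by
    simp only [P24.cxk, Bool.and_eq_true, decide_eq_true_eq] at h
    rw [weq_eq h.2, ev_pww]
    simpa [ev] using r.cox i h.1.1 j h.1.2
  | [], h => by simp [P24.cxk] at h
  | [_], h => by simp [P24.cxk] at h

/-- check of a list of relators -/
def satc (mp : List ℕ) (base ex : List (List ℕ)) : Bool :=
  mp.all (fun i => decide (i ∈ bs)) && base.all fun w => w.all (fun i => Nat.blt i mp.length) &&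
    (cxk (w.map fun i => mp.getD i 0).reverse ||
      ex.any fun u => weq u (w.map fun i => mp.getD i 0).reverse)

theorem getD_mem {mp : List ℕ} (h : i < mp.length) : mp.getD i 0 ∈ mp := by
  rw [List.getD_eq_getElem _ _ h]; exact List.getElem_mem _

theorem Rl.sat (r : Rl v) {mp : List ℕ} {base ex : List (List ℕ)} (hex : ∀ w ∈ ex, ev v w = 1)
    (h : satc mp base ex = true) : Sat mp.length base fun i => v (mp.getD i 0) := by
  simp only [satc, Bool.and_eq_true, List.all_eq_true, decide_eq_true_eq, Bool.or_eq_true,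
    List.any_eq_true, Nat.blt_eq] at h
  refine ⟨fun i hi => r.sq (h.1 _ (getD_mem hi)), fun w hw => ⟨(h.2 w hw).1, ?_⟩⟩
  rw [evl_mp']
  rcases (h.2 w hw).2 with a | ⟨u, a, b⟩
  exacts [r.cxk a, weq_eq b ▸ hex u a]

theorem clo_eq {Q : Type*} [Group Q] (v : ℕ → Q) (mp : List ℕ) :
    closure ((fun i => v (mp.getD i 0)) '' {i | i < mp.length}) = gn v mp := by
  unfold gn
  congr 1
  ext x
  constructor
  · rintro ⟨i, hi, rfl⟩; exact ⟨_, getD_mem hi, rfl⟩
  · rintro ⟨_, hi, rfl⟩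
    obtain ⟨n, hn, rfl⟩ := List.getElem_of_mem hi
    exact ⟨n, hn, by simp only; rw [List.getD_eq_getElem _ _ hn]⟩

/-- the context -/
structure Cx (φ : P →* G) (v : ℕ → P) (D : Set G) (β : ℕ → G) : Prop where
  r : Rl v
  h : Fi.M24 D β
  hv : ∀ i < 14, φ (v i) = β (gp i)

theorem Cx.fin (C : Cx φ v D β) : Finite G := Nat.finite_of_card_ne_zero (by rw [C.h.card]; norm_num)

theorem fs24_lt : ∀ i ∈ fs24, i < 14 := by decide

theorem Cx.phi (C : Cx φ v D β) (h : Fi.relChk R24 fs24 fs24 w = true) : φ (ev v w) = 1 := by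
  have := h
  rw [Fi.relChk, band_iff, sub_iff] at this
  rw [phi_ev fun i hi => C.hv i (fs24_lt i (this.1 i hi)), C.h.toModel.rel h]

theorem Cx.inj_pb (C : Cx φ v D β) {N : ℕ} {base ex : List (List ℕ)} {Ls : List Lv}
    (hP : PB.{0} (hd Ls).length (fun i => i) base N) (hex : ∀ w ∈ ex, ev v w = 1)
    (h : satc (hd Ls) base ex = true) (hL : lvc R24 fs24 306936 Ls = true)
    (hN : N ≤ sz Ls ∧ ∀ i ∈ hd Ls, i < 14) : Inj φ (gn v (hd Ls)) := by
  haveI := C.fin
  have s := C.r.sat hex h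
  obtain ⟨a, b⟩ := hP P _ (fun i hi => ⟨hi, s.1 i hi⟩) s.2
  rw [clo_eq] at a b
  refine inj_of_card (b.trans (hN.1.trans ?_))
  rw [map_gn fun i hi => C.hv i (hN.2 i hi)]
  exact lvc_sound C.h.toLab hL

/-- a word in the given letters which is trivial in the model -/
noncomputable def trc (ls w : List ℕ) : Bool := sub w ls &&' Fi.relChk R24 fs24 fs24 w

/-- transfer of relations -/
def Tr (v : ℕ → P) (ls : List ℕ) : Prop := ∀ w, trc ls w = true → ev v w = 1

theorem Cx.tr (C : Cx φ v D β) (I : Inj φ H) (h : ∀ i ∈ ls, v i ∈ H) : Tr v ls := fun w hw => by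
  rw [trc, band_iff, sub_iff] at hw
  exact I _ (ev_in fun i hi => h i (hw.1 i hi)) (C.phi hw.2)

theorem Cx.lm {mp : List ℕ} (C : Cx φ v D β) (h : sub lw mp = true ∧ sub mw mp = true) :
    ∀ i ∈ 12 :: 10 :: mp, v i ∈ gn v mp := by
  simp only [List.forall_mem_cons]
  exact ⟨C.r.l ▸ ev_gn (sub_iff.1 h.1), C.r.m ▸ ev_gn (sub_iff.1 h.2), fun i hi => gn_mem hi⟩

theorem pbE7 : PB.{0} 7 (fun i => i) Y5b.base 2903040 :=
  (Y5.pbE6.step (base := Y5b.base) Y5b.cert (by decide +kernel)).congr (by decide +kernel)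

theorem Cx.trE (C : Cx φ v D β) : Tr v (12 :: hd lvE) :=
  C.tr (C.inj_pb (Ls := lvE) (ex := []) pbE7 (by simp) (by decide +kernel) lvE_ok (by decide +kernel))
    (List.forall_mem_cons.2 ⟨C.r.l ▸ ev_gn (by decide +kernel), fun _ hi => gn_mem hi⟩)

/-- reflection in the highest root -/
def xA : List ℕ := [3, 2, 1, 0, 9, 8, 5, 1, 0, 9, 2, 1, 0, 3, 2, 1, 5, 1, 2, 3, 0, 1, 2, 9, 0, 1, 5,
  8, 9, 0, 1, 2, 3]

/-- reflection in the highest root -/
def xB : List ℕ := [9, 0, 1, 2, 3, 4, 5, 1, 2, 3, 0, 1, 2, 9, 0, 1, 5, 1, 0, 9, 2, 1, 0, 3, 2, 1, 5,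
  4, 3, 2, 1, 0, 9]

theorem Cx.injA (C : Cx φ v D β) : Inj φ (gn v (hd lvA)) := by
  refine C.inj_pb (Ls := lvA) (ex := [(4 :: xA) ++ (4 :: xA)]) Y5.pb2 ?_ (by decide +kernel) lvA_ok
    (by decide +kernel)
  have a := C.trE (xA ++ 12 :: pww [1, 2, 0, 5, 9, 8] 5) (by decide +kernel)
  have b := C.trE (xA ++ xA) (by decide +kernel)
  have c : Commute (ev v (12 :: pww [1, 2, 0, 5, 9, 8] 5)) (v 4) :=
    comm_ev fun i hi => C.r.cm (by revert i; decide +kernel) (by decide) (by revert i; decide +kernel)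
  rw [ev_append] at a b
  rw [← eq_inv_iff_mul_eq_one] at a
  have c := c.inv_left
  rw [← a] at c
  simp only [List.mem_singleton, forall_eq, ev_append, ev]
  rw [mul_assoc, ← mul_assoc (ev v xA), c.eq, mul_assoc, b, mul_one, C.r.sq (by decide)]

theorem Cx.trA (C : Cx φ v D β) : Tr v (12 :: 10 :: hd lvA) := C.tr C.injA (C.lm (by decide +kernel))

theorem Cx.injB (C : Cx φ v D β) : Inj φ (gn v (hd lvB)) :=
  C.inj_pb (Ls := lvB) (ex := [(8 :: xB) ++ (8 :: xB)]) Y5.pb2
    (by simpa only [List.mem_singleton, forall_eq] using C.trA _ (by decide +kernel))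
    (by decide +kernel) lvB_ok (by decide +kernel)

theorem Cx.trB (C : Cx φ v D β) : Tr v (12 :: 10 :: hd lvB) := C.tr C.injB (C.lm (by decide +kernel))

theorem Cx.spider (C : Cx φ v D β) : ev v (pww [6, 5, 1, 3, 2, 1, 9, 0, 1] 10) = 1 := by
  have s := C.r.sat (mp := [1, 0, 9, 8, 13, 12, 2, 3, 5, 6]) (base := P24s.base)
    (ex := [12 :: lw]) (by simpa only [List.mem_singleton, forall_eq] using C.trE _ (by decide +kernel))
    (by decide +kernel)
  have m := P24s.cert.mem _ (gn v (hd lvA)) (fun i hi => ⟨hi, s.1 i hi⟩) s.2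
    (fun i hi h => C.lm (by decide +kernel) _ (by revert i; decide +kernel))
  rw [evl_mp', show (List.map _ _).reverse = pww [6, 5, 1, 3, 2, 1, 9, 0, 1] 10 by decide +kernel] at m
  exact C.injA _ m (C.phi (by decide +kernel))

theorem Cx.sq (C : Cx φ v D β) (h : i ∈ fs24) : v i * v i = 1 := by
  by_cases e : i = 10
  · simpa [ev, e] using C.trA [10, 10] (by decide +kernel)
  · exact C.r.sq (by revert i; decide)

theorem Tr.eq (T : Tr v ls) (C : Cx φ v D β) (h : trc ls (w ++ w'.reverse) = true) :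
    ev v w = ev v w' := by
  have := T _ h
  rw [trc, band_iff, Fi.relChk, band_iff, sub_iff, sub_iff] at h
  rwa [ev_append, ev_rev fun i hi => C.sq (h.2.1 i (by simp [hi])), mul_inv_eq_one] at this

theorem Tr.comm (T : Tr v ls) (C : Cx φ v D β) (h : trc ls ((w ++ w') ++ (w' ++ w).reverse) = true) :
    Commute (ev v w) (ev v w') := by
  have := T.eq C h
  rwa [ev_append, ev_append] at this

theorem ev_one {Q : Type*} [Group Q] (v : ℕ → Q) (i : ℕ) : ev v [i] = v i := mul_one _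

theorem Cx.mi (C : Cx φ v D β) : Commute (v 6) (v 10) := by
  have s := C.r.sat (mp := [0, 1, 2, 3, 5, 9, 6, 4]) (base := Y5a.base) (ex := [_])
    (by simpa only [List.mem_singleton, forall_eq] using C.spider) (by decide +kernel)
  have := (mdl_sound (by norm_num) (by norm_num) Y5.pb1 Y5.chk1 s ((6 :: Y5.yw) ++ (6 :: Y5.yw))
    (by decide +kernel)).2
  rw [evl_mp', show (List.map _ _).reverse = (pww [1, 2, 0, 5, 3, 9, 4] 9 ++ [6]) ++
    (pww [1, 2, 0, 5, 3, 9, 4] 9 ++ [6]) by decide +kernel, ev_append, ev_append,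
    C.trA.eq C (w := pww [1, 2, 0, 5, 3, 9, 4] 9) (w' := [10]) (by decide +kernel), ev_one v,
    ev_one v, ← _root_.sq] at this
  exact (Y5.comm_of (C.sq (by decide)) (C.sq (by decide)) this).symm

/-- the letters of `Y₃₃₂` -/
def mpF : List ℕ := [0, 1, 2, 3, 5, 9, 6, 4, 8]

theorem Cx.cl (C : Cx φ v D β) (h : i ∈ mpF) : Commute (v i) (v 12) :=
  C.r.cm (by revert i; decide) (by decide) (by revert i; decide)

theorem Cx.cm (C : Cx φ v D β) (h : i ∈ mpF) : Commute (v i) (v 10) := by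
  by_cases e : i = 6
  · exact e ▸ C.mi
  · simpa only [ev_one] using C.trA.comm C (w := [i]) (w' := [10]) (by revert i; decide +kernel)

theorem card_four {Q : Type*} [Group Q] {a b : Q} (ha : a * a = 1) (hb : b * b = 1)
    (h : Commute a b) : ∃ Z : Subgroup Q, Finite Z ∧ Nat.card Z ≤ 4 ∧ a ∈ Z ∧ b ∈ Z ∧
      ∀ g, Commute g a → Commute g b → ∀ z ∈ Z, Commute g z := by
  have k : ∀ a : Q, a * a = 1 → Finite (zpowers a) ∧ Nat.card (zpowers a) ≤ 2 := fun a ha => by
    have o : IsOfFinOrder a := isOfFinOrder_iff_pow_eq_one.2 ⟨2, two_pos, by rw [sq, ha]⟩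
    exact ⟨(finite_zpowers.2 o).to_subtype,
      by rw [Nat.card_zpowers]; exact orderOf_le_of_pow_eq_one two_pos (by rw [sq, ha])⟩
  obtain ⟨a1, a2⟩ := k a ha
  obtain ⟨b1, b2⟩ := k b hb
  let f := (zpowers a).subtype.noncommCoprod (zpowers b).subtype (by
    rintro ⟨_, m, rfl⟩ ⟨_, n, rfl⟩; exact h.zpow_zpow m n)
  refine ⟨f.range, Finite.of_surjective _ f.rangeRestrict_surjective,
    (Nat.card_le_card_of_surjective _ f.rangeRestrict_surjective).trans
      (by rw [Nat.card_prod]; exact Nat.mul_le_mul a2 b2),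
    ⟨(⟨a, mem_zpowers a⟩, 1), by simp [f]⟩, ⟨(1, ⟨b, mem_zpowers b⟩), by simp [f]⟩, ?_⟩
  rintro g h1 h2 _ ⟨⟨⟨_, m, rfl⟩, ⟨_, n, rfl⟩⟩, rfl⟩
  exact (h1.zpow_right m).mul_right (h2.zpow_right n)

theorem Cx.cardL (C : Cx φ v D β) : Finite (gn v mpF) ∧ Nat.card (gn v mpF) ≤ 64561751654400 * 4 := by
  obtain ⟨Z, z1, z2, z3, z4, z5⟩ := card_four (C.sq (i := 12) (by decide)) (C.sq (i := 10) (by decide))
    (by simpa only [ev_one] using C.trA.comm C (w := [12]) (w' := [10]) (by decide +kernel))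
  set L := gn v mpF
  have zc : ∀ g ∈ L, ∀ z ∈ Z, Commute g z := fun g hg =>
    z5 g (comm_gn (fun i => C.cl) hg) (comm_gn (fun i => C.cm) hg)
  haveI : (Z.subgroupOf L).Normal := ⟨fun n hn g => by
    rw [mem_subgroupOf] at hn ⊢
    simpa [(zc g g.2 n hn).eq] using hn⟩
  have hm : ∀ i, mpF.getD i 0 ∈ mpF := fun i => by
    by_cases h : i < mpF.length
    exacts [getD_mem h, by rw [List.getD_eq_default _ _ (by omega)]; decide]
  let ι : ℕ → L := fun i => ⟨v (mpF.getD i 0), gn_mem (hm i)⟩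
  have e : ∀ w, evl (fun i => QuotientGroup.mk' (Z.subgroupOf L) (ι i)) w = 1 ↔
      evl (fun i => v (mpF.getD i 0)) w ∈ Z := fun w => by
    rw [← evl_map, QuotientGroup.mk'_apply, QuotientGroup.eq_one_iff, mem_subgroupOf]
    exact iff_of_eq (congrArg (· ∈ Z) (evl_map L.subtype ι w))
  have s := C.r.sat (mp := mpF) (base := cxb 9 F22.lab ++ [pww [1, 0, 5, 1, 2, 3, 1, 4, 6] 10])
    (ex := [_]) (by simpa only [List.mem_singleton, forall_eq] using C.spider) (by decide +kernel)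
  obtain ⟨a, b⟩ := F22.pb' (L ⧸ Z.subgroupOf L) (fun i => QuotientGroup.mk' (Z.subgroupOf L) (ι i))
    (fun i hi => ⟨hi, by
      have := (e [i, i]).2 (by simp only [evl, one_mul]; rw [s.1 i hi]; exact one_mem _)
      simpa only [evl, one_mul] using this⟩) (fun w hw => by
      refine ⟨ltAll_sound (show ltAll 9 (cxb 9 F22.lab ++ F22.ex') = true by decide +kernel) w hw,
        (e w).2 ?_⟩
      simp only [F22.ex', List.mem_append, List.mem_cons, List.not_mem_nil, or_false] at hw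
      rcases hw with h | rfl | rfl | rfl
      · rw [(s.2 w (List.mem_append_left _ h)).2]; exact one_mem _
      · rw [(s.2 _ (by simp)).2]; exact one_mem _
      · rw [evl_mp', C.trA.eq C (w' := [12]) (by decide +kernel), ev_one]; exact z3
      · rw [evl_mp', C.trA.eq C (w' := [10]) (by decide +kernel), ev_one]; exact z4)
  have t : closure ((fun i => QuotientGroup.mk' (Z.subgroupOf L) (ι i)) '' {i | i < 9}) = ⊤ := by
    have t1 : closure (ι '' {i | i < 9}) = ⊤ := by
      apply map_injective L.subtype_injective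
      rw [MonoidHom.map_closure, ← Set.image_comp, ← MonoidHom.range_eq_map, range_subtype]
      exact clo_eq v mpF
    rw [show (fun i => QuotientGroup.mk' (Z.subgroupOf L) (ι i)) = QuotientGroup.mk' _ ∘ ι from rfl,
      Set.image_comp, ← MonoidHom.map_closure, t1, map_top_of_surjective _ (QuotientGroup.mk'_surjective _)]
  rw [t] at a b
  rw [card_top] at b
  haveI : Finite (L ⧸ Z.subgroupOf L) := Finite.of_equiv _ topEquiv.toEquiv
  have zi : Function.Injective fun z : Z.subgroupOf L => (⟨(z : L), z.2⟩ : Z) := fun x y h =>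
    Subtype.ext (Subtype.ext (congrArg (Subtype.val : Z → P) h))
  haveI := Finite.of_injective _ zi
  refine ⟨Finite.of_equiv _ (groupEquivQuotientProdSubgroup (s := Z.subgroupOf L)).symm, ?_⟩
  rw [card_eq_card_quotient_mul_card_subgroup (Z.subgroupOf L)]
  exact Nat.mul_le_mul b ((Nat.card_le_card_of_injective _ zi).trans z2)

theorem up_step [Finite G] (T X : Subgroup G) (y : G) {S : Set G} (h : ∀ t ∈ T, t * y * t⁻¹ ∈ S)
    (hX : ∀ t ∈ T, Commute t y → t ∈ X) : Nat.card T ≤ S.ncard * Nat.card X := by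
  rw [card_eq_card_quotient_mul_card_subgroup ((centralizer {y}).subgroupOf T)]
  refine Nat.mul_le_mul ?_ (Nat.card_le_card_of_injective (fun t => (⟨(t : T), hX _ t.1.2
    (mem_centralizer_singleton_iff.1 t.2)⟩ : X)) fun a b e =>
      Subtype.ext (Subtype.ext (congrArg (Subtype.val : X → G) e)))
  rw [← Nat.card_coe_set_eq]
  refine Nat.card_le_card_of_injective (fun q => ⟨q.out * y * (q.out : G)⁻¹, h _ q.out.2⟩)
    fun a b e => ?_
  have e : (a.out : G) * y * (a.out : G)⁻¹ = b.out * y * (b.out : G)⁻¹ := congrArg Subtype.val e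
  rw [← a.out_eq, ← b.out_eq]
  refine QuotientGroup.eq.2 (mem_subgroupOf.2 (mem_centralizer_singleton_iff.2 ?_))
  rw [coe_mul, coe_inv]
  calc _ = (a.out : G)⁻¹ * (b.out * y * (b.out : G)⁻¹) * b.out := by group
    _ = _ := by rw [← e]; group

theorem Cx.injL (C : Cx φ v D β) : Inj φ (gn v mpF) := by
  haveI := C.fin
  obtain ⟨a, b⟩ := C.cardL
  refine inj_of_card (b.trans ?_)
  rw [map_gn fun i hi => C.hv i (by revert i; decide)]
  have h1 := up_step ⊤ (gen β fs23) (β 31671) (S := D)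
    (fun t _ => C.h.t3.cj t _ (C.h.mem _ (by decide)))
    (fun t _ c => C.h.cent ▸ mem_centralizer_singleton_iff.2 c)
  have h2 := up_step (gen β fs23) (gen β mpF) (β 3510)
    (fun t ht => C.h.lab23.conj_mem ht _ (C.h.lab23.mem _ (by decide))) (fun t ht c => by
      have : t ∈ gen β fs22 := by
        rw [← C.h.cent2, mem_centralizer_iff]
        rintro _ (rfl | rfl)
        exacts [(mem_centralizer_singleton_iff.1 (C.h.cent ▸ ht)).symm, c.symm]
      refine (closure_le _).2 ?_ this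
      rintro _ ⟨i, hi, rfl⟩
      by_cases e : i = 7
      · exact e ▸ gen_mono6 (by decide) (gen7 C.h.lab22.toActs)
      · exact gv_mem (by revert i; decide))
  rw [card_top, C.h.card, C.h.ncard_eq] at h1
  rw [C.h.lab23.ncard_eq] at h2
  omega

end Cfsg.Agent.P24
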