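import Cfsg.Agent.P24.Base
import Cfsg.Agent.Fi.LcD

/-! # The presented group `Fi₂₄`: the subgroup `2 × Fi₂₃` -/

set_option autoImplicit false

namespace Cfsg.Agent.P24

open Cfsg.Agent.Fi Cfsg.Agent.TT Cfsg.Agent.TT.Wd Cfsg.Agent.TC Subgroup

variable {P : Type} {G : Type*} [Group P] [Group G] {φ : P →* G} {v : ℕ → P} {β : ℕ → G}
  {H : Subgroup P} {D : Set G} {i j p q : ℕ} {w u ls gs ks : List ℕ} {h x : P} {g a : G}

theorem Cx.inj22 (C : Cx φ v D β) : Inj φ (gn v gs23) :=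
  C.injL.mono (gn_le fun i hi => C.lm (mp := mpF) (by decide +kernel) i (by revert i; decide))

theorem Cx.trL (C : Cx φ v D β) : Tr v gs23 := C.tr C.inj22 fun _ => gn_mem

theorem Cx.su24 (C : Cx φ v D β) : Su φ v β R24 fs24 306936 D where
  lab := C.h.toLab
  hv i hi := C.hv i (fs24_lt i hi)
  sq _ := C.sq
  cx i hi j hj := by
    have : lall (fun i => lall (fun j => cxk (cxw R24 i j) ||' trc (12 :: 10 :: hd lvA) (cxw R24 i j)
      ||' trc (12 :: 10 :: hd lvB) (cxw R24 i j) ||' trc gs23 (cxw R24 i j)) fs24) fs24 = true := by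
      decide +kernel
    simp only [lall_iff, bor_iff] at this
    rcases this i hi j hj with h | h | h | h
    exacts [C.r.cxk h, C.trA _ h, C.trB _ h, C.trL _ h]

theorem fs23_sub : ∀ i ∈ fs23, i ∈ fs24 := by decide

theorem Cx.su23 (C : Cx φ v D β) : Su φ v β R23 fs23 31671 (perp D (β 31671)) where
  lab := C.h.lab23
  hv i hi := C.su24.hv i (fs23_sub i hi)
  sq i hi := C.sq (fs23_sub i hi)
  cx i hi j hj := by
    rw [show cxw R23 i j = cxw R24 i j by revert i j; decide +kernel]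
    exact C.su24.cx i (fs23_sub i hi) j (fs23_sub j hj)

theorem Cx.cw (C : Cx φ v D β) (hi : i ∈ fs24) (h : ∀ j ∈ w, j ∈ fs24 ∧ pt (R24 j (gp i)) = gp i) :
    Commute (ev v w) (v i) := comm_ev fun j hj => C.su24.comm (h j hj).1 hi (h j hj).2

theorem Cx.pev (C : Cx φ v D β) (h : ∀ i ∈ w, i ∈ fs24) : φ (ev v w) = ev (gv β) w :=
  phi_ev fun i hi => C.su24.hv i (h i hi)

theorem Cx.cj (C : Cx φ v D β) (h : (∀ i ∈ u, i ∈ fs24) ∧ p < 306936 ∧ app R24 u.reverse p = q) :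
    φ (ev v u) * β p * (φ (ev v u))⁻¹ = β q := by
  rw [← h.2.2, (C.h.word (fun i hi => h.1 i (List.mem_reverse.1 hi)) h.2.1).2, C.h.rev h.1, inv_inv,
    C.pev h.1]

theorem Cx.cc (C : Cx φ v D β) (h : (∀ i ∈ u, i ∈ fs24) ∧ p < 306936 ∧ app R24 u.reverse p = q)
    (c : Commute g (β q)) : β p * ((φ (ev v u))⁻¹ * g * φ (ev v u)) =
      (φ (ev v u))⁻¹ * g * φ (ev v u) * β p := by
  rw [← C.cj h] at c
  calc _ = (φ (ev v u))⁻¹ * (φ (ev v u) * β p * (φ (ev v u))⁻¹ * g) * φ (ev v u) := by group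
    _ = _ := by rw [← c.eq]; group

theorem Cx.cg (C : Cx φ v D β) (hl : p < 306936 ∧ ∀ i ∈ ls, i ∈ fs24 ∧ pt (R24 i p) = p)
    (hh : h ∈ gn v ls) : Commute (φ h) (β p) := by
  refine (commute_gen (gs := ls) (fun i hi =>
    ((C.h.comm_iff (hl.2 i hi).1 hl.1).2 (hl.2 i hi).2).symm) ?_).symm
  rw [← map_gn fun i hi => C.su24.hv i (hl.2 i hi).1]
  exact mem_map_of_mem _ hh

theorem Cx.k2 (I : Inj φ H) (e : G) (hC : ∀ h ∈ H, Commute (φ h) a → e⁻¹ * φ h * e ∈ gen β ks)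
    (hk : ∀ i ∈ ks, ∃ h ∈ H, φ h = e * β (gp i) * e⁻¹ ∧ x⁻¹ * h * x ∈ H) : K2 φ H x a := by
  intro h h1 h2
  have : gen β ks ≤ ((H ⊓ H.comap (MulAut.conj x⁻¹).toMonoidHom).map φ).comap
      (MulAut.conj e).toMonoidHom := (closure_le _).2 (by
    rintro _ ⟨i, hi, rfl⟩
    obtain ⟨h, a, b, c⟩ := hk i hi
    exact ⟨h, ⟨a, by simpa using c⟩, b⟩)
  obtain ⟨h', ⟨a, b⟩, c⟩ := this (hC h h1 h2)
  rw [I.eq h1 a (by rw [c]; simp [mul_assoc])]
  simpa using b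

theorem Cx.hk (C : Cx φ v D β) {xw : List ℕ} (h : (∀ i ∈ u, i ∈ fs24) ∧ p < 306936 ∧ ∃ j ∈ gs,
    j ∈ fs24 ∧ app R24 u.reverse p = gp j ∧ ∀ t ∈ xw, t ∈ fs24 ∧ pt (R24 t (gp j)) = gp j) :
    ∃ h ∈ gn v gs, φ h = φ (ev v u) * β p * (φ (ev v u))⁻¹ ∧
      (ev v xw)⁻¹ * h * ev v xw ∈ gn v gs := by
  obtain ⟨h1, h2, j, h3, h4, h5, h6⟩ := h
  refine ⟨v j, gn_mem h3, by rw [C.cj ⟨h1, h2, h5⟩, C.su24.hv j h4], ?_⟩
  rw [mul_assoc, ← (C.cw h4 h6).eq, inv_mul_cancel_left]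
  exact gn_mem h3

theorem Cx.hk' (C : Cx φ v D β) (T : Tr v ls) {xw s t : List ℕ} (h : ((∀ i ∈ u, i ∈ fs24) ∧
    p < 306936 ∧ app R24 u.reverse p = app R24 t (gp j)) ∧ (∀ i ∈ j :: t, i ∈ gs ∧ i ∈ fs24) ∧
    (∀ i ∈ s, i ∈ gs) ∧ trc ls ((tw t j ++ xw) ++ (xw ++ s).reverse) = true) :
    ∃ h ∈ gn v gs, φ h = φ (ev v u) * β p * (φ (ev v u))⁻¹ ∧
      (ev v xw)⁻¹ * h * ev v xw ∈ gn v gs := by
  obtain ⟨h1, h2, h3, h4⟩ := h
  rw [List.forall_mem_cons] at h2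
  have := T.eq C h4
  refine ⟨ev v (tw t j), ev_gn (tw_sub (fun i hi => (h2.2 i hi).1) h2.1.1), ?_, ?_⟩
  · rw [C.cj h1, C.pev (tw_sub (fun i hi => (h2.2 i hi).2) h2.1.2),
      C.h.ev_tw (fun i hi => (h2.2 i hi).2) h2.1.2]
  · rw [ev_append, ev_append] at this
    rw [mul_assoc, this, inv_mul_cancel_left]
    exact ev_gn h3

theorem Cx.lift (C : Cx φ v D β) (hs : ∀ i ∈ gs, i ∈ fs24) (hg : g ∈ gen β gs) :
    ∃ h ∈ gn v gs, φ h = g := by
  rwa [← map_gn fun i hi => C.su24.hv i (hs i hi)] at hg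

theorem Cx.n4 (C : Cx φ v D β) (T : Tr v ls) {xw : List ℕ} {k : ℕ} (h : ((∀ i ∈ u, i ∈ fs24) ∧
    p < 306936 ∧ app R24 u.reverse p = q) ∧ (∀ i ∈ j :: u, i ∈ gs) ∧
    trc ls ((k :: (u ++ xw)) ++ ((u ++ xw) ++ [j]).reverse) = true) :
    N4 φ (gn v gs) (ev v xw) (v k) (β p) (β q) := by
  obtain ⟨h1, h2, h3⟩ := h
  rw [List.forall_mem_cons] at h2
  have := T.eq C h3
  rw [ev, ev_append, ev_append, ev_append, ev_one] at this
  refine ⟨ev v u, ev_gn h2.2, (C.cj h1).symm, ?_⟩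
  rw [this, inv_mul_cancel_left]
  exact gn_mem h2.1

theorem gen22_le (C : Cx φ v D β) : gen β fs22 ≤ gen β gs23 := (closure_le _).2 (by
  rintro _ ⟨i, hi, rfl⟩
  by_cases e : i = 7
  · exact e ▸ gen_mono6 (by decide) (gen7 C.h.lab22.toActs)
  · exact gv_mem (by revert i; decide))

/-- longest element of a chain of eleven letters -/
def w12 : List ℕ := [12, 13, 12, 8, 13, 12, 9, 8, 13, 12, 0, 9, 8, 13, 12, 1, 0, 9, 8, 13, 12, 2, 1,
  0, 9, 8, 13, 12, 3, 2, 1, 0, 9, 8, 13, 12, 4, 3, 2, 1, 0, 9, 8, 13, 12, 11, 4, 3, 2, 1, 0, 9, 8, 13,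
  12, 10, 11, 4, 3, 2, 1, 0, 9, 8, 13, 12]

/-- mirror image of `u7` -/
def u7m : List ℕ := [1, 0, 9, 5, 1, 0, 3, 2, 1, 5, 4, 3, 2, 1, 0, 9]

theorem Cx.k23 (C : Cx φ v D β) : K2 φ (gn v gs23) (ev v [11, 4, 10, 11]) (β (gp 4)) := by
  refine Cx.k2 (β := β) (ks := gs21) C.inj22 (φ (ev v w12)) (fun h h1 h2 => ?_) fun i hi => ?_
  · rw [← C.h.cent3, mem_centralizer_iff]
    rintro _ (rfl | rfl | rfl)
    · exact C.cc (q := 3510) (by decide +kernel) (C.cg (by decide +kernel) h1)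
    · refine C.cc (q := 31671) (by decide +kernel) (C.cg (by decide +kernel) h1)
    · exact C.cc (by decide +kernel) h2
  · by_cases e : i = 7
    · exact e ▸ C.hk' C.trB (t := u7m) (j := 2) (s := tw [1, 2, 3, 4, 5, 1, 2, 3] 0)
        (by decide +kernel)
    · exact C.hk (by revert i; decide +kernel)

theorem fin_true {tab : ℕ → ℕ} {ins outs : List ℕ} {m : ℕ → Bool} (h : finChk tab ins outs m q = true)
    (hm : m q = true) : bse tab q ∈ ins := by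
  rw [finChk, hm] at h; exact lmem_iff.1 h

theorem finD11 : All (finChk tbD11 [693, 10, 694] [105, 707] fun p => Nat.beq (pt (R23 11 p)) p)
    0 3510 := rng2_sound (by decide +kernel)

theorem mem_wds {l : List ℕ} (h : w ∈ wds (gtr l)) : ∀ i ∈ w, i ∈ l := by
  simp only [wds, gtr, List.map_map, List.mem_map, Function.comp] at h
  obtain ⟨i, hi, rfl⟩ := h
  simpa [tw] using hi

theorem Cx.n23 (C : Cx φ v D β) (hq : q < 3510) (e : pt (R23 11 q) = q) :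
    N4 φ (gn v gs23) (ev v [11, 4, 10, 11]) (v 11) (β (gp 4)) (β q) := by
  have hl : ∀ i ∈ [0, 1, 2, 3, 5, 6, 7, 8, 9], i ∈ fs22 ∧ v i ∈ gn v gs23 ∧ Commute (v i) (v 11) ∧
      φ (v i) = β (gp i) := fun i hi => by
    refine ⟨by revert i; decide, ?_, ?_, C.hv i (by revert i; decide)⟩
    all_goals by_cases e : i = 7
    · rw [e, C.r.n]; exact ev_gn (by decide)
    · exact gn_mem (by revert i; decide)
    · rw [e, C.r.n]; exact C.cw (by decide) (by decide +kernel)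
    · exact C.su24.comm (by revert i; decide) (by decide) (by revert i; decide +kernel)
  have b : N4 φ (gn v gs23) (ev v [11, 4, 10, 11]) (v 11) (β (gp 4)) (β 37) :=
    C.n4 C.trB (u := [4, 3]) (j := 3) (by decide +kernel)
  have k := fun w hw => (N4.word (x := ev v [11, 4, 10, 11]) (a := β (gp 4)) C.h.lab22.toActs hl
    (w := w) hw (p := 37) (by decide)).2 b
  refine (orb_sound (Pr := fun q => N4 φ (gn v gs23) (ev v [11, 4, 10, 11]) (v 11) (β (gp 4)) (β q))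
    (fun w hw q hq => ?_) orbD11 q hq).2 ?_
  · have m : ∀ i ∈ w, i ∈ [0, 1, 2, 3, 5, 6, 7, 8, 9] := fun i hi =>
      (by decide : ∀ i ∈ [0, 1, 2, 3, 5, 6, 7, 8], i ∈ [0, 1, 2, 3, 5, 6, 7, 8, 9]) i (mem_wds hw i hi)
    exact ⟨(C.h.lab22.word (fun i hi => (hl i (m i hi)).1) hq).1,
      (N4.word C.h.lab22.toActs hl m hq).1⟩
  · have := fin_true (finD11 q (Nat.zero_le _) hq) ((Fi.beq_iff _ _).2 e)
    simp only [List.mem_cons, List.not_mem_nil, or_false] at this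
    rcases this with h | h | h <;> rw [h]
    · convert k [2, 1, 0, 3, 2, 1, 9, 0, 8, 9] (by decide) using 2; decide +kernel
    · convert k [2, 3] (by decide) using 2; decide +kernel
    · convert k [2, 1, 0, 3, 2, 1, 9, 0] (by decide) using 2; decide +kernel

theorem Cx.wk (C : Cx φ v D β) (T : Tr v gs) (T' : Tr v ls) {k : ℕ} {t y t' : List ℕ}
    (h : k ∈ fs24 ∧ trc gs (w ++ (t ++ (y ++ t')).reverse) = true ∧
      trc ls ((y ++ [k]) ++ ([k] ++ y).reverse) = true ∧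
      (∀ j ∈ t, j ∈ fs24 ∧ pt (R24 j (gp k)) = gp k) ∧
      ∀ j ∈ t', j ∈ fs24 ∧ pt (R24 j (gp k)) = gp k) : Commute (ev v w) (v k) := by
  obtain ⟨h1, h2, h3, h4, h5⟩ := h
  rw [T.eq C h2, ev_append, ev_append]
  exact (C.cw h1 h4).mul_left ((ev_one v k ▸ T'.comm C h3).mul_left (C.cw h1 h5))

theorem Cx.inj23 (C : Cx φ v D β) : Inj φ (gn v fs23) := by
  refine step tab23 C.su23 C.inj22 (by decide +kernel) (by decide +kernel) C.k23 (fun q hq => ?_)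
    (fun q => C.n23) fun p hp => ?_
  · obtain ⟨g, a, b⟩ := C.h.lab22.exists_conj (C.h.lab22.mem q hq) (p := gp 4) (by decide +kernel)
    rw [C.h.lab22.closure_eq] at a
    obtain ⟨h, c, rfl⟩ := C.lift (by decide) (gen22_le C a)
    exact ⟨h, c, b⟩
  · have : ∀ p ∈ Ws23, (∀ a ∈ p.1, a ∈ gs23) ∧ ((p.2 = 0 ∧ trc gs23 p.1 = true) ∨ (p.2 = 3510 + 2 ∧
      (p.1 = w23_8 ∨ ∀ j ∈ p.1, j ∈ fs24 ∧ pt (R24 j (gp 11)) = gp 11))) := by decide +kernel
    refine (this p hp).imp_right (Or.imp (And.imp_right (C.trL _)) (And.imp_right ?_))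
    rintro (e | e)
    · exact e ▸ C.wk C.trL C.trB (t := []) (t' := [3, 2, 1, 5, 0, 1, 2, 3])
        (y := 4 :: (tw [1, 2, 3, 4, 5, 1, 2, 3] 0 ++ tw u7m 2 ++ [10])) (by decide +kernel)
    · exact C.cw (by decide) e

end Cfsg.Agent.P24
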