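import Cfsg.Agent.P24.Step

/-! # Lower bounds for orders by orbits, and lifting of walks -/

set_option autoImplicit false

namespace Cfsg.Agent.P24

open Cfsg.Agent.Fi Cfsg.Agent.TT Cfsg.Agent.TT.Wd Subgroup

variable {P G : Type*} [Group P] [Group G] {φ : P →* G} {v : ℕ → P} {β : ℕ → G} {H : Subgroup P}
  {gs : List ℕ} {R : ℕ → ℕ → ℕ} {N : ℕ} {S D : Set G}

theorem low_step [Finite G] {S T : Subgroup G} (hST : S ≤ T) {y : G} (hy : ∀ s ∈ S, Commute s y)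
    {n : ℕ} (t : Fin n → G) (ht : ∀ k, t k ∈ T) (hi : Function.Injective fun k => (t k)⁻¹ * y * t k) :
    n * Nat.card S ≤ Nat.card T := by
  have := Nat.card_le_card_of_injective
    (fun p : Fin n × S => (⟨p.2 * t p.1, mul_mem (hST p.2.2) (ht _)⟩ : T)) (by
      rintro ⟨a, s⟩ ⟨b, s'⟩ e
      have e : (s : G) * t a = s' * t b := congrArg Subtype.val e
      have k : ∀ (s : S) a, (t a)⁻¹ * y * t a = (s * t a)⁻¹ * y * (s * t a) := fun s a => by
        rw [mul_inv_rev, mul_assoc (t a)⁻¹, mul_assoc (t a)⁻¹, mul_assoc (t a)⁻¹, ← mul_assoc _ (s : G),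
          mul_assoc _ y, ← (hy s s.2).eq, inv_mul_cancel_left]
      obtain rfl : a = b := hi (by simp only; rw [k s, k s', e])
      rw [Subtype.ext (mul_right_cancel e)])
  simpa [Nat.card_prod] using this

/-- the images of a point increase -/
noncomputable def upc (R : ℕ → ℕ → ℕ) (p : ℕ) (ws : List (List ℕ)) : ℕ → Bool :=
  @List.rec (List ℕ) (fun _ => ℕ → Bool) (fun _ => true)
    (fun w _ ih lo => apI R (fun q => Nat.ble lo q &&' ih (Nat.succ q)) w p) ws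

theorem upc_sound {p : ℕ} : ∀ {ws : List (List ℕ)} {lo : ℕ}, upc R p ws lo = true →
    (∀ w ∈ ws, lo ≤ app R w p) ∧ ws.Pairwise fun u w => app R u p < app R w p
  | [], _, _ => by simp
  | w :: ws, lo, h => by
    have h' := apI_sound (show apI R (fun q => Nat.ble lo q &&' upc R p ws (Nat.succ q)) w p = true
      from h)
    rw [band_iff, ble_iff] at h'
    obtain ⟨a, b⟩ := upc_sound h'.2
    refine ⟨fun u hu => ?_, List.pairwise_cons.2 ⟨a, b⟩⟩
    rcases List.mem_cons.1 hu with rfl | hu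
    exacts [h'.1, h'.1.trans (Nat.le_of_succ_le (a u hu))]

/-- a level: a point, letters, words -/
abbrev Lv := ℕ × List ℕ × List (List ℕ)

/-- letters of the first level -/
def hd : List Lv → List ℕ
  | [] => []
  | L :: _ => L.2.1

/-- size of a chain -/
def sz : List Lv → ℕ
  | [] => 1
  | L :: Ls => L.2.2.length * sz Ls

/-- check of a chain -/
noncomputable def lvc (R : ℕ → ℕ → ℕ) (gs : List ℕ) (N : ℕ) (Ls : List Lv) : Bool :=
  @List.rec Lv (fun _ => Bool) true (fun L Ls ih => Nat.ble (Nat.succ L.1) N &&' sub L.2.1 gs &&'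
    sub (hd Ls) L.2.1 &&' lall (fun i => fx6 R i L.1) (hd Ls) &&' lall (fun w => sub w L.2.1) L.2.2 &&'
    upc R L.1 L.2.2 (nat_lit 0) &&' ih) Ls

theorem lvc_sound [Finite G] (h : Lab R gs N S β) : ∀ {Ls : List Lv}, lvc R gs N Ls = true →
    sz Ls ≤ Nat.card (gen β (hd Ls))
  | [], _ => Nat.card_pos
  | L :: Ls, c => by
    have c : (Nat.ble (Nat.succ L.1) N &&' sub L.2.1 gs &&'
      sub (hd Ls) L.2.1 &&' lall (fun i => fx6 R i L.1) (hd Ls) &&' lall (fun w => sub w L.2.1) L.2.2 &&'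
      upc R L.1 L.2.2 (nat_lit 0) &&' lvc R gs N Ls) = true := c
    simp only [band_iff, ble_iff, sub_iff, lall_iff, fx6_iff] at c
    obtain ⟨c1, c2, c3, c4, c5, c6, c7⟩ := c
    have c6 := List.pairwise_iff_getElem.1 (upc_sound c6).2
    have w := fun k : Fin L.2.2.length => h.word (p := L.1) (w := L.2.2[k])
      (fun i hi => c2 i (c5 _ (List.getElem_mem _) i hi)) c1
    refine (Nat.mul_le_mul_left _ (lvc_sound h c7)).trans (low_step (gen_mono6 c3) (y := β L.1)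
      (fun s hs => (commute_gen (fun i hi => ((h.comm_iff (c2 i (c3 i hi)) c1).2 (c4 i hi)).symm)
        hs).symm) (fun k => ev (gv β) L.2.2[k]) (fun k => ev_mem (c5 _ (List.getElem_mem _))) ?_)
    intro a b e
    have e := h.inj _ (w a).1 _ (w b).1 ((w a).2.trans (e.trans (w b).2.symm))
    rcases lt_trichotomy a b with d | d | d
    · exact absurd e (c6 a b a.2 b.2 d).ne
    · exact d
    · exact absurd e (c6 b a b.2 a.2 d).ne'

/-- the setting of a cover of the commuting graph -/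
structure Cv (φ : P →* G) (H : Subgroup P) (D : Set G) (x h0 : P) (l a : G) : Prop where
  t3 : T3 D
  lm : l ∈ D
  am : a ∈ perp D l
  hl : ∀ h ∈ H, Commute (φ h) l
  x2 : x * x = 1
  xa : φ x * l * (φ x)⁻¹ = a
  k2 : K2 φ H x a
  t1 : ∀ y ∈ perp D l, ∃ h ∈ H, y = φ h * a * (φ h)⁻¹
  h0m : h0 ∈ H
  tri : x * h0 * x = h0 * x * h0
  t2 : ∀ y ∈ perp (perp D l) a, ∃ h ∈ H, Commute (φ h) a ∧ y = φ (h * h0) * a * (φ (h * h0))⁻¹

variable {x h0 k : P} {l a y : G} {u u1 u2 u' : P ⧸ H}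

/-- adjacency of cosets -/
def Adj (x : P) (u u' : P ⧸ H) : Prop := ∃ g : P, u = g ∧ u' = (g * x : P)

/-- projection -/
noncomputable def prj (φ : P →* G) (l : G) (u : P ⧸ H) : G := φ u.out * l * (φ u.out)⁻¹

theorem Cv.prj_mk (C : Cv φ H D x h0 l a) (g : P) : prj φ l (g : P ⧸ H) = φ g * l * (φ g)⁻¹ := by
  obtain ⟨h, e⟩ := QuotientGroup.mk_out_eq_mul H g
  rw [prj, e, map_mul, mul_assoc _ (φ h), (C.hl h h.2).eq]
  group

theorem Cv.prj_x (C : Cv φ H D x h0 l a) (g : P) :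
    prj φ l ((g * x : P) : P ⧸ H) = φ g * a * (φ g)⁻¹ := by
  rw [C.prj_mk, ← C.xa, map_mul]; group

theorem Cv.prj_smul (C : Cv φ H D x h0 l a) (g : P) (u : P ⧸ H) :
    prj φ l (g • u) = φ g * prj φ l u * (φ g)⁻¹ := by
  induction u using QuotientGroup.induction_on
  rw [MulAction.Quotient.smul_coe, C.prj_mk, C.prj_mk, smul_eq_mul, map_mul]; group

theorem Adj.smul (h : Adj x u u') (g : P) : Adj x (g • u) (g • u') := by
  obtain ⟨t, rfl, rfl⟩ := h
  exact ⟨g * t, rfl, by rw [MulAction.Quotient.smul_coe, smul_eq_mul, mul_assoc]⟩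

theorem Cv.symm (C : Cv φ H D x h0 l a) (h : Adj x u u') : Adj x u' u := by
  obtain ⟨t, rfl, rfl⟩ := h
  exact ⟨t * x, rfl, by rw [mul_assoc, C.x2, mul_one]⟩

theorem mk_mul {g h : P} (hh : h ∈ H) : ((g * h : P) : P ⧸ H) = g := by
  rw [eq_comm, QuotientGroup.eq]; simpa using hh

theorem perp_cj (T : T3 D) (g : G) (h : y ∈ perp D (g * l * g⁻¹)) : g⁻¹ * y * g ∈ perp D l := by
  rw [← cjs_perp T] at h; exact h

theorem Cv.surj (C : Cv φ H D x h0 l a) (h : y ∈ perp D (prj φ l u)) :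
    ∃ u', Adj x u u' ∧ prj φ l u' = y := by
  induction u using QuotientGroup.induction_on with | H g => ?_
  rw [C.prj_mk] at h
  obtain ⟨t, t1, t2⟩ := C.t1 _ (perp_cj C.t3 _ h)
  refine ⟨_, ⟨g * t, (mk_mul t1).symm, rfl⟩, ?_⟩
  rw [C.prj_x, map_mul]
  calc _ = φ g * (φ t * a * (φ t)⁻¹) * (φ g)⁻¹ := by group
    _ = _ := by rw [← t2]; group

theorem Cv.inj (C : Cv φ H D x h0 l a) (h1 : Adj x u u1) (h2 : Adj x u u2)
    (e : prj φ l u1 = prj φ l u2) : u1 = u2 := by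
  obtain ⟨g, rfl, rfl⟩ := h1
  obtain ⟨g', e', rfl⟩ := h2
  rw [QuotientGroup.eq] at e'
  rw [C.prj_x, C.prj_x] at e
  have := C.k2.eq (one_mem _) e' (by
    rw [map_mul, map_inv, map_one]
    calc _ = (φ g)⁻¹ * (φ g * a * (φ g)⁻¹) * φ g := by group
      _ = _ := by rw [e]; group)
  have := congrArg (g • ·) this
  simpa only [MulAction.Quotient.smul_coe, smul_eq_mul, one_mul, ← mul_assoc, mul_inv_cancel]
    using this

theorem Cv.mem (C : Cv φ H D x h0 l a) (h : Adj x u u') : prj φ l u' ∈ perp D (prj φ l u) := by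
  obtain ⟨g, rfl, rfl⟩ := h
  rw [C.prj_x, C.prj_mk, ← cjs_perp C.t3]
  exact mem_cjs.2 C.am

theorem Cv.tri' (C : Cv φ H D x h0 l a) (h1 : Adj x u u1) (h2 : Adj x u u2)
    (e : prj φ l u2 ∈ perp D (prj φ l u1)) : Adj x u1 u2 := by
  have m := C.mem h2
  obtain ⟨g, rfl, rfl⟩ := h1
  rw [C.prj_x] at e
  rw [C.prj_mk] at m
  obtain ⟨h, a1, a2, a3⟩ := C.t2 _ ⟨perp_cj C.t3 _ m, (perp_cj C.t3 _ e).2⟩
  have b : u2 = (g * (h * h0) * x : P) := C.inj h2 ⟨_, (mk_mul (mul_mem a1 C.h0m)).symm, rfl⟩ (by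
    rw [C.prj_x, map_mul]
    calc _ = φ g * ((φ g)⁻¹ * prj φ l u2 * φ g) * (φ g)⁻¹ := by group
      _ = _ := by rw [a3]; group)
  refine ⟨g * h * x * h0, ?_, ?_⟩
  · rw [mk_mul C.h0m, QuotientGroup.eq]
    convert C.k2 h a1 a2 using 1
    group
  · rw [b, ← mk_mul (g := g * (h * h0) * x) C.h0m]
    congr 1
    calc _ = g * h * (h0 * x * h0) := by group
      _ = _ := by rw [← C.tri]; group

/-- lifted walks -/
def Wk (φ : P →* G) (x : P) (l : G) (β : ℕ → G) (N : ℕ) : P ⧸ H → List ℕ → P ⧸ H → Prop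
  | u, [], u' => u = u'
  | u, p :: ps, u' => p < N ∧ ∃ u1, Adj x u u1 ∧ prj φ l u1 = β p ∧ Wk φ x l β N u1 ps u'

/-- `p` is the point of `t`, and is adjacent to `q` -/
noncomputable def adc (R : ℕ → ℕ → ℕ) (gs : List ℕ) (t : Tp) (p q : ℕ) : Bool :=
  pwOk R gs (p, t) &&' bnot (Nat.beq p q) &&' tA R t (Nat.beq q) q

theorem adc_sound (L : Lab R gs N D β) {t : Tp} {p q : ℕ} (h : adc R gs t p q = true) (hq : q < N) :
    p < N ∧ β p ∈ perp D (β q) ∧ β q ∈ perp D (β p) := by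
  rw [adc, band_iff, band_iff, bnot_iff, beq_iff] at h
  have hp : p < N := L.pw_lt h.1
  have c : Commute (β p) (β q) := (L.pw_comm h.1 hq).2 ((beq_iff _ _).1 (tA_sound h.2.2)).symm
  have n : β p ≠ β q := fun e => h.2.1 (L.inj _ hp _ hq e)
  exact ⟨hp, ⟨L.mem _ hp, n, c.symm⟩, L.mem _ hq, n.symm, c⟩

/-- a local move -/
noncomputable def loc (R : ℕ → ℕ → ℕ) (gs : List ℕ) (t : Tp) (s : ℕ) : List ℕ → List ℕ → Bool
  | p :: q :: r, qs => (weq qs (q :: r) &&' adc R gs t q s) ||' (weq qs r &&' Nat.beq q s) ||'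
      (weq qs (t.p R :: p :: q :: r) &&' adc R gs t (qs.headD 0) s &&' adc R gs t (qs.headD 0) p)
  | _, _ => false

/-- a move -/
noncomputable def mv (R : ℕ → ℕ → ℕ) (gs : List ℕ) (t : Tp) : ℕ → ℕ → List ℕ → List ℕ → Bool
  | 0, s, ps, qs => loc R gs t s ps qs
  | n + 1, _, p :: ps, q :: qs => Nat.beq p q &&' mv R gs t n p ps qs
  | _ + 1, _, _, _ => false

theorem Cv.mv (C : Cv φ H D x h0 l a) (L : Lab R gs N D β) {t : Tp} : ∀ {n s : ℕ} {ps qs : List ℕ}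
    {u : P ⧸ H}, mv R gs t n s ps qs = true → s < N → prj φ l u = β s → Wk φ x l β N u ps u' →
      Wk φ x l β N u qs u'
  | 0, s, p :: q :: r, qs, u, h, hs, e, ⟨a1, u1, a2, a3, b1, u2, b2, b3, w⟩ => by
    rw [P24.mv, loc, bor_iff, bor_iff, band_iff, band_iff, band_iff, band_iff, beq_iff] at h
    rcases h with ⟨h1, h2⟩ | ⟨h1, rfl⟩ | ⟨h1, h2, h3⟩
    · rw [weq_eq h1]
      exact ⟨b1, u2, C.tri' (C.symm a2) b2 (by rw [e, b3]; exact (adc_sound L h2 hs).2.1), b3, w⟩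
    · rw [weq_eq h1, C.inj (C.symm a2) b2 (e.trans b3.symm)]
      exact w
    · rw [weq_eq h1] at h2 h3 ⊢
      obtain ⟨c1, c2, -⟩ := adc_sound L h2 hs
      obtain ⟨u3, d1, d2⟩ := C.surj (e ▸ c2)
      exact ⟨c1, u3, d1, d2, a1, u1, C.tri' d1 a2 (by rw [d2, a3]; exact (adc_sound L h3 a1).2.2), a3,
        b1, u2, b2, b3, w⟩
  | n + 1, _, p :: ps, q :: qs, u, h, _, _, ⟨a1, u1, a2, a3, w⟩ => by
    rw [P24.mv, band_iff, beq_iff] at h
    obtain ⟨rfl, h⟩ := h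
    exact ⟨a1, u1, a2, a3, C.mv L h a1 a3 w⟩
  | 0, _, [], _, _, h, _, _, _ => by simp [P24.mv, loc] at h
  | 0, _, [_], _, _, h, _, _, _ => by simp [P24.mv, loc] at h
  | _ + 1, _, [], _, _, h, _, _, _ => by simp [P24.mv] at h
  | _ + 1, _, _ :: _, [], _, h, _, _, _ => by simp [P24.mv] at h

/-- a sequence of moves -/
noncomputable def mvs (R : ℕ → ℕ → ℕ) (gs : List ℕ) (s : ℕ) (fin : List ℕ) :
    List (ℕ × Tp × List ℕ) → List ℕ → Bool
  | [], ps => weq ps fin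
  | m :: ms, ps => mv R gs m.2.1 m.1 s ps m.2.2 &&' mvs R gs s fin ms m.2.2

theorem Cv.mvs (C : Cv φ H D x h0 l a) (L : Lab R gs N D β) {s : ℕ} {fin : List ℕ} (hs : s < N)
    (e : prj φ l u = β s) : ∀ {ms : List (ℕ × Tp × List ℕ)} {ps : List ℕ},
      mvs R gs s fin ms ps = true → Wk φ x l β N u ps u' → Wk φ x l β N u fin u'
  | [], _, h, w => weq_eq h ▸ w
  | m :: ms, _, h, w => by
    rw [P24.mvs, band_iff] at h
    exact C.mvs L hs e h.2 (C.mv L h.1 hs e w)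

/-- check of a periodic walk -/
noncomputable def per (R : ℕ → ℕ → ℕ) (w : List ℕ) : ℕ → ℕ → ℕ → List ℕ → Bool
  | 0, _, _, [] => true
  | n + 1, p, q, p' :: q' :: r => apI R (Nat.beq p') w p &&' apI R (Nat.beq q') w q &&' per R w n p' q' r
  | _, _, _, _ => false

theorem Cv.per (C : Cv φ H D x h0 l a) (L : Lab R gs N D β) {w : List ℕ} (hw : ∀ i ∈ w, i ∈ gs)
    {e : P} (he : φ e = (ev (gv β) w)⁻¹) : ∀ {n p q : ℕ} {r : List ℕ} {u m : P ⧸ H},
      per R w n p q r = true → p < N → q < N → Adj x u m → Adj x m (e • u) → prj φ l m = β p →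
        prj φ l (e • u) = β q → Wk φ x l β N u (p :: q :: r) (e ^ (n + 1) • u)
  | 0, p, q, [], u, m, _, hp, hq, a1, a2, b1, b2 =>
    ⟨hp, m, a1, b1, hq, _, a2, b2, by simp [Wk]⟩
  | n + 1, p, q, p' :: q' :: r, u, m, h, hp, hq, a1, a2, b1, b2 => by
    rw [P24.per, band_iff, band_iff] at h
    obtain ⟨h1, h2, h3⟩ := h
    have h1 := (beq_iff _ _).1 (apI_sound h1)
    have h2 := (beq_iff _ _).1 (apI_sound h2)
    obtain ⟨c1, c2⟩ := L.word hw hp
    obtain ⟨d1, d2⟩ := L.word hw hq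
    rw [← h1] at c1 c2
    rw [← h2] at d1 d2
    refine ⟨hp, m, a1, b1, hq, _, a2, b2, ?_⟩
    rw [pow_succ, mul_smul]
    exact C.per L hw he h3 c1 d1 (a1.smul e) (a2.smul e) (by rw [C.prj_smul, b1, c2, he, inv_inv])
      (by rw [C.prj_smul, b2, d2, he, inv_inv])
  | 0, _, _, _ :: _, _, _, h, _, _, _, _, _, _ => by simp [P24.per] at h
  | _ + 1, _, _, [], _, _, h, _, _, _, _, _, _ => by simp [P24.per] at h
  | _ + 1, _, _, [_], _, _, h, _, _, _, _, _, _ => by simp [P24.per] at h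

theorem Cv.n4_iff (C : Cv φ H D x h0 l a) (h : Adj x ((1 : P) : P ⧸ H) u) :
    N4 φ H x k a (prj φ l u) ↔ k • u = u := by
  constructor
  · rintro ⟨t, t1, t2, t3⟩
    rw [C.inj h ⟨t, by simpa using (mk_mul (g := 1) t1).symm, rfl⟩ (t2.trans (C.prj_x t).symm),
      MulAction.Quotient.smul_coe, smul_eq_mul, eq_comm, QuotientGroup.eq]
    exact t3
  · obtain ⟨g, e, rfl⟩ := h
    intro f
    rw [MulAction.Quotient.smul_coe, smul_eq_mul, eq_comm, QuotientGroup.eq] at f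
    exact ⟨g, by simpa using QuotientGroup.eq.1 e, C.prj_x g, f⟩

/-- the use of a closed walk of length four -/
theorem Cv.four (C : Cv φ H D x h0 l a) {p q r s : ℕ}
    (w : Wk φ x l β N ((1 : P) : P ⧸ H) [p, q, r, s] ((1 : P) : P ⧸ H)) (hr : N4 φ H x k a (β r))
    (hq : β q = φ k * l * (φ k)⁻¹) (hp : Commute (φ k) (β p)) : N4 φ H x k a (β p) := by
  obtain ⟨-, u1, a1, b1, -, u2, a2, b2, -, u3, a3, b3, -, u4, a4, -, rfl⟩ := w
  have c := (C.symm a4).smul k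
  rw [(C.n4_iff (C.symm a4)).1 (b3 ▸ hr)] at c
  obtain rfl : u2 = k • ((1 : P) : P ⧸ H) :=
    C.inj (C.symm a3) (C.symm c) (by rw [b2, hq, C.prj_smul, C.prj_mk]; simp)
  rw [← b1, C.n4_iff a1]
  exact C.inj (a1.smul k) (C.symm a2) (by rw [C.prj_smul, b1, hp.eq, mul_inv_cancel_right])

end Cfsg.Agent.P24
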