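import Cfsg.Agent.Leech.Fix3

/-! # The normalizer of a subgroup of order three in a group of Monster type -/

set_option autoImplicit false

namespace Cfsg.Agent.P24

open Cfsg.Spor Cfsg.Agent.GT Cfsg.Agent.TT Subgroup Cfsg.Agent.M24 MulAction Cfsg.Agent.Leech
open scoped commutatorElement

variable {G : Type*} [Group G] [Finite G] {Q : Subgroup G} {z : G} {Ψ : Lv → G → Prop}
  {π : C1[z] →* Co1} {b q r s : G} {y : Co0} {v : Lv}

theorem odd_set {H L : Type*} [Group H] [Finite H] [Group L] (M : MT Q z Ψ π)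
    (a : Ψ (e8 none) s) (hbs : b ∈ C1[s]) (l : Lf π b y) (hb : Odd (orderOf b))
    (hy : Odd (orderOf y)) (θ₀ : C1[y] →* L) (hθ₀ : Function.Surjective θ₀)
    (hk₀ : ∀ g, θ₀ g = 1 ↔ pj g ∈ zpowers (pj y)) (hodd : Odd (orbit C1[y] x8).ncard)
    (hf₀ : ∀ g : C1[y], (∀ x ∈ orbit C1[y] x8, g • x = x) → θ₀ g = 1) {w : ℕ}
    (hF : {x : Lt | y • x = x}.ncard = 2 ^ (2 * w)) (ρ : C1[b] →* H) (hρ : Function.Surjective ρ)
    (hk : kr ρ = zpowers b) :
    ∃ (z' : H) (Q' : Subgroup C1[z']) (_ : Q'.Normal), IsExtraspecialCentralizerSetting z' Q' w ∧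
      Nonempty (C1[z'] ⧸ Q' ≃* L) ∧ ∀ m : C1[b], m.1 ∈ Q → ρ m ∈ Q'.map C1[z'].subtype := by
  have : Finite L := Finite.of_surjective _ hθ₀
  have zb := mem_cent1_comm.1 l.1
  have hs := (M.conj_z_iff a).2 (Eqv.refl _)
  have sR : s ∈ Q ⊓ C1[b] := ⟨M.memQ a, mem_cent1_comm.1 hbs⟩
  have s1 : s ≠ 1 := fun h => M.ne (isConj_one_left.1 (h ▸ hs.1))
  have hQB : ∀ x ∈ Q, x ∈ kr ρ → x = 1 := fun x hx h => PG.eq_one_of_mem_of_coprime M.isPGroup hx
    (Nat.coprime_two_right.2 (hb.of_dvd_nat (orderOf_dvd_of_mem_zpowers (hk ▸ h))))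
  have E := es_cent_odd M.toES hb (M.nQ l.1) sR s1 hs.2
  -- elements of order at most four are determined by their images
  have ρ4 : ∀ m m' : C1[b], m.1 ^ 2 ^ 2 = 1 → m'.1 ^ 2 ^ 2 = 1 → ρ m = ρ m' → m = m' :=
    fun m m' h h' e => by
    rw [← inv_mul_eq_one, ← map_inv, ← map_mul, ← mem_kr' (m⁻¹ * m').2, hk] at e
    have h1 : Commute m.1 (m⁻¹ * m').1 := by
      obtain ⟨k, hk⟩ := e
      rw [← hk]; exact Commute.zpow_right (mem_cent1.1 m.2) k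
    have h2 : (m⁻¹ * m').1 ^ 2 ^ 2 = 1 := by
      have := h1.mul_pow (2 ^ 2)
      rwa [Subgroup.coe_mul, Subgroup.coe_inv, mul_inv_cancel_left, h, h', one_mul, eq_comm] at this
    refine inv_mul_eq_one.1 (Subtype.ext (orderOf_eq_one_iff.1 (Nat.eq_one_of_dvd_coprimes
      (Nat.coprime_two_right.2 hb |>.pow_right 2) (orderOf_dvd_of_mem_zpowers e)
      (orderOf_dvd_of_pow_eq_one h2))))
  have hD := M.im_cent_odd l hb hy le_rfl (le_normalizer l.1) (X := ⊤)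
    (by rw [im_dom_of_surj M.πs, map_top_of_surjective _ pj_surj]) trivial
  rw [top_inf_eq] at hD
  let φ : C1[y] →* (C1[y]).map pj := pj.subgroupMap _
  have hle : φ.ker ≤ θ₀.ker := fun g hg => (hk₀ g).2 (by
    rw [show pj g = 1 from congrArg Subtype.val hg]; exact one_mem _)
  let θ₁ := φ.liftOfSurjective (pj.subgroupMap_surjective _) ⟨θ₀, hle⟩
  let θ : ↥(C1[z] ⊓ C1[b]) →* L := θ₁.comp ((π.comp (inclusion inf_le_left)).codRestrict _
    fun d => hD ▸ mem_im_of_mem _ d.2)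
  have eθ : ∀ (d : ↥(C1[z] ⊓ C1[b])) (g : C1[y]), Lf π d g → θ d = θ₀ g := fun d g h =>
    (congrArg θ₁ (Subtype.ext h.2)).trans (φ.liftOfRightInverse_comp_apply _ _ _ g)
  have ex1 : ∀ d : ↥(C1[z] ⊓ C1[b]), ∃ g : C1[y], Lf π d g := fun d => by
    obtain ⟨g, hg, e⟩ := hD.le (mem_im_of_mem d.2.1 d.2)
    exact ⟨⟨g, hg⟩, d.2.1, e.symm⟩
  have ex2 : ∀ g : C1[y], ∃ d : ↥(C1[z] ⊓ C1[b]), Lf π d g := fun g => by
    obtain ⟨d, h1, h2, e⟩ := mem_im.1 (hD.ge ⟨g, g.2, rfl⟩)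
    exact ⟨⟨d, h2⟩, h1, e⟩
  have x8y : y • x8 = x8 := (M.fix_iff a l hb).1 sR.2
  have kfix : ∀ g : C1[y], θ₀ g = 1 → g • x8 = x8 := fun g hg => by
    obtain ⟨k, hk⟩ := (hk₀ g).1 hg
    rw [Subgroup.smul_def, ← act_of_pj ((map_zpow pj y k).trans hk)]
    exact zpow_mem (show y ∈ stabilizer Co0 x8 from x8y) k
  have cR : Nat.card (im ρ (Q ⊓ C1[b])) = 2 ^ (2 * w + 1) := by
    rw [card_im_of_inf_eq_bot inf_le_right (eq_bot_iff.2 fun x hx => hQB x hx.1.1 hx.2), pow_succ',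
      ← hF, ← M.ncard_fix l hb (S := {x : Lt | y • x = x}) fun _ h => h, ← Nat.card_coe_set_eq]
    refine congrArg (fun S : Set G => Nat.card S) (Set.ext fun q => ⟨fun h => ⟨h.2, ?_⟩,
      fun ⟨h, v, hv, _⟩ => ⟨M.memQ hv, h⟩⟩)
    obtain ⟨v, hv⟩ := M.surj q h.1
    exact ⟨v, hv, (M.fix_iff hv l hb).1 h.2⟩
  obtain ⟨hn, hS, -, e, -⟩ := setting_quot (D := C1[z] ⊓ C1[b]) (R := Q ⊓ C1[b]) ρ hρ zb
    (inf_le_inf_right _ M.le_cent1) inf_le_right
    (fun m hm => ⟨mem_cent1.2 (mul_inv_eq_iff_eq_mul.1 (congrArg Subtype.val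
      (ρ4 (m * ⟨z, zb⟩ * m⁻¹) ⟨z, zb⟩ (by simpa using M.pow_four M.mem) (M.pow_four M.mem)
        (by rw [map_mul, map_mul, map_inv, hm.eq, mul_inv_cancel_right])))), m.2⟩)
    inf_le_left (es_im M.toES inf_le_left E.mem inf_le_right ρ (fun h => M.ne (hQB z M.mem h))
      (fun x hx h => (E.cent x hx h).imp (fun e => by rw [e]; exact one_mem _) fun e => by
        rw [e, M.zz]; exact one_mem _) E.nonab) cR θ
    (fun t => by
      obtain ⟨g, rfl⟩ := hθ₀ t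
      obtain ⟨d, hd⟩ := ex2 g
      exact ⟨d, eθ d g hd⟩)
    (by
      refine le_antisymm (fun d hd => ?_) (sup_le (fun r hr => mem_kr.2 ⟨⟨M.le_cent1 hr.1, hr.2⟩,
        (eθ _ 1 (M.lf_one.2 hr.1)).trans (map_one _)⟩) (hk ▸ zpowers_le.2 (mem_kr.2
          ⟨⟨l.1, self_mem_cent1 b⟩, (eθ _ ⟨y, self_mem_cent1 y⟩ l).trans
            ((hk₀ _).2 (mem_zpowers _))⟩)))
      obtain ⟨hd, h1⟩ := mem_kr.1 hd
      obtain ⟨g, hg⟩ := ex1 ⟨d, hd⟩
      obtain ⟨k, h2⟩ := PG.exists_nat_pow_of_mem_zpowers ((hk₀ g).1 ((eθ _ _ hg).symm.trans h1))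
      rw [← inv_mul_cancel_right d (b ^ k), hk]
      refine mul_mem_sup ⟨M.lf_one.1 ((hg.mul (l.pow k).inv).congr ?_), C1[b].mul_mem hd.2
        (C1[b].inv_mem (pow_mem (self_mem_cent1 b) k))⟩ (pow_mem (mem_zpowers b) k)
      rw [map_mul, map_inv, map_pow, h2, mul_inv_cancel, map_one])
    (fun N hN h2 => by
      let S := (stabilizer C1[y] x8).map θ₀
      have hS : N ≤ S := by
        by_contra hc
        have h3 := (PG.dvd_relIndex_of_not_le h2 hc).trans 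
          (relIndex_dvd_relIndex_of_norm_or (M := ⊤) le_top le_top (Or.inl le_norm_of_normal))
        rw [relIndex_top_right, index_map_eq _ hθ₀ (fun g hg => kfix g hg), index_stabilizer] at h3
        exact hodd.not_two_dvd_nat h3
      refine eq_bot_iff.2 fun n hn => ?_
      obtain ⟨g, rfl⟩ := hθ₀ n
      refine hf₀ g ?_
      rintro _ ⟨c, rfl⟩
      obtain ⟨u, hu, e⟩ := hS (hN.conj_mem' _ hn (θ₀ c))
      have := kfix (u⁻¹ * (c⁻¹ * g * c)) (by rw [map_mul, map_inv, e]; simp [mul_assoc])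
      rw [mul_smul, inv_smul_eq_iff, show u • x8 = x8 from hu, mul_smul, mul_smul,
        inv_smul_eq_iff] at this
      exact this)
    (fun N _ h => eq_bot_iff.2 fun t ht => by
      obtain ⟨d, rfl, h1⟩ := h t ht
      obtain ⟨g, hg⟩ := ex1 d
      rw [eθ d g hg]
      refine hf₀ g ?_
      rintro _ ⟨c, rfl⟩
      obtain ⟨v, hv⟩ := cl_surj (c • x8)
      obtain ⟨q, hq⟩ := M.ex v
      have h2 : q ∈ Q ⊓ C1[b] := ⟨M.memQ hq, (M.fix_iff hq l hb).2 (by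
        rw [hv, Subgroup.smul_def, ← mul_smul, ← mem_cent1.1 c.2, mul_smul, x8y])⟩
      have h3 := hQB _ (mul_mem (conj_mem_of_le_norm M.nQ d.2.1 h2.1) (inv_mem h2.1)) (h1 q h2)
      have := mem_St_iff.1 (M.mem_St hq hg (mem_cent1.2
        (mul_inv_eq_iff_eq_mul.1 (mul_inv_eq_one.1 h3))))
      simp only [← hv]; exact this)
    (by
      obtain ⟨m, hm, e⟩ := M.conj_cent l.1 hb sR hs.1
      exact ⟨m, hm, e ▸ sR, e ▸ fun h => hs.2 (mul_inv_eq_one.1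
        (hQB _ (mul_mem sR.1 (inv_mem M.mem)) h))⟩)
  exact ⟨_, _, hn, hS, ⟨e⟩, fun m h => ⟨⟨ρ m, mem_cent1.2 (by
    rw [← map_mul, ← map_mul]; exact congrArg ρ (Subtype.ext (M.zc _ h).symm))⟩,
      mem_im_of_mem m.2 ⟨h, m.2⟩, rfl⟩⟩

/-- `wA` is a commutator in its centralizer -/
theorem wA_comm : ∃ α α' : M24, Commute α wA ∧ Commute α' wA ∧ α * α' * α⁻¹ * α'⁻¹ = wA := by
  obtain ⟨α, h⟩ := exists_mcode (p := 631819253446489358838767865375174227) (by decide +kernel)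
  obtain ⟨α', h'⟩ := exists_mcode (p := 6841018272920545454691327763687137) (by decide +kernel)
  refine ⟨α, α', gcM.inj ?_, gcM.inj ?_, gcM.inj ?_⟩ <;>
    simp only [gcM.code_mul, gcM.code_inv, h, h', mcode_wA] <;> decide +kernel

theorem wA_inv : ∃ τ : M24, τ * wA * τ⁻¹ = wA⁻¹ := by
  have f : wA.1 (pt 7) = pt 7 := idx_inj (by rw [← ap_pcode, ← mcode, mcode_wA]; decide +kernel)
  obtain ⟨a, ha⟩ := class3A orderOf_wA fun h => h (pt 7) f
  obtain ⟨c, hc⟩ := class3A ((orderOf_inv wA).trans orderOf_wA) fun h => h (pt 7)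
    (Equiv.Perm.inv_eq_iff_eq.2 f.symm)
  exact ⟨c * a⁻¹, by rw [hc, ha]; group⟩

theorem exists_lf_cent (M : MT Q z Ψ π) (l : Lf π b y) (hb : Odd (orderOf b)) (hy : Odd (orderOf y))
    {g : Co0} (hg : Commute g y) : ∃ d, Commute d b ∧ Lf π d g := by
  have hD := M.im_cent_odd l hb hy le_rfl (le_normalizer l.1) (X := ⊤)
    (by rw [im_dom_of_surj M.πs, map_top_of_surjective _ pj_surj]) trivial
  obtain ⟨d, h1, h2, e⟩ := mem_im.1 (hD.ge ⟨g, ⟨trivial, mem_cent1.2 hg⟩, rfl⟩)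
  exact ⟨d, mem_cent1.1 h2.2, h1, e⟩

theorem mem_comm (M : MT Q z Ψ π) (l : Lf π b (prm wA)) (hb : orderOf b = 3) :
    (⟨b, self_mem_cent1 b⟩ : C1[b]) ∈ commutator C1[b] := by
  obtain ⟨α, α', h1, h2, h3⟩ := wA_comm
  have o : Odd (orderOf b) := by rw [hb]; decide
  have o' := odd_prm orderOf_wA (by decide)
  obtain ⟨a, a1, a2⟩ := exists_lf_cent M l o o' (h1.map prm)
  obtain ⟨c, c1, c2⟩ := exists_lf_cent M l o o' (h2.map prm)
  have k : Commute (a * c * a⁻¹ * c⁻¹) b := ((a1.mul_left c1).mul_left a1.inv_left).mul_left c1.inv_left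
  have q := M.pow_four (M.lf_one.1 (((((a2.mul c2).mul a2.inv).mul c2.inv).mul l.inv).congr (by
    rw [← map_inv, ← map_inv, ← map_mul, ← map_mul, ← map_mul, h3, mul_inv_cancel])))
  rw [k.inv_right.mul_pow, inv_pow, mul_inv_eq_one, show 2 ^ 2 = 3 + 1 from rfl, pow_succ b, ← hb,
    pow_orderOf_eq_one, one_mul] at q
  have : (⟨b, self_mem_cent1 b⟩ : C1[b]) = ⁅(⟨a, mem_cent1.2 a1⟩ : C1[b]), ⟨c, mem_cent1.2 c1⟩⁆ ^ (orderOf b + 1) :=
    Subtype.ext q.symm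
  rw [this]
  exact pow_mem (commutator_mem_commutator (mem_top _) (mem_top _)) _

theorem exists_inv (M : MT Q z Ψ π) (l : Lf π b (prm wA)) (hb : orderOf b = 3) :
    ∃ t ∈ N[zpowers b], t ∉ C1[b] := by
  obtain ⟨τ, h⟩ := wA_inv
  obtain ⟨t, a⟩ := M.exists_lf (prm τ)
  have e : Lf π (t * b * t⁻¹) (prm wA)⁻¹ := by
    have := (a.mul l).mul a.inv
    rwa [← map_inv, ← map_mul, ← map_mul, h, map_inv] at this
  have c3 : Nat.card (zpowers b) = 3 := by rw [Nat.card_zpowers, hb]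
  obtain ⟨g, hg, k⟩ := coprime_exists_conj_le (H := Q) (A := cj[t] (zpowers b)) (U := zpowers b)
    (Or.inl (by
      haveI := M.isPGroup.isNilpotent
      infer_instance)) ((conj_le_of_mem a.1 (zpowers_le.2 l.1)).trans M.nQ)
    (by rw [card_conj, c3, M.card]; norm_num) (by
      rintro _ ⟨_, ⟨k, rfl⟩, rfl⟩
      obtain ⟨k, hk⟩ := PG.exists_nat_pow_of_mem_zpowers (zpow_mem_zpowers b k)
      refine ⟨(t * b * t⁻¹) ^ k * b ^ k, M.lf_one.1 ?_, (b ^ k)⁻¹, inv_mem (pow_mem (mem_zpowers b) k), ?_⟩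
      · have := (e.pow k).mul (l.pow k)
        rwa [inv_pow, inv_mul_cancel] at this
      · simp [← hk])
  rw [← mul_conj] at k
  refine ⟨g * t, conj_eq_self_iff.1 (eq_of_le_of_card_ge k (by rw [card_conj])), fun c => ?_⟩
  have := ((M.lf_one.2 hg).mul e).mul (M.lf_one.2 hg).inv
  rw [show g * (t * b * t⁻¹) * g⁻¹ = g * t * b * (g * t)⁻¹ by group, mem_cent1.1 c,
    mul_inv_cancel_right, inv_one, one_mul, mul_one, ← map_inv] at this
  have := pj_prm_inj (this.pj_eq l)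
  have o := orderOf_dvd_of_pow_eq_one (show wA ^ 2 = 1 by rw [sq, ← mul_inv_cancel wA, this])
  rw [orderOf_wA] at o
  omega

theorem cent_of_fix {L : Type*} [Group L] {w n : ℕ} (h : Good wA L w n) (M : MT Q z Ψ π)
    (l : Lf π b (prm wA)) (hb : orderOf b = 3) {t : G} (ht : t * b * t⁻¹ = b⁻¹)
    (hc : ∀ r ∈ Q, r ∈ C1[b] → Commute t r) : False := by
  obtain ⟨θ, -, h1, -, h2, -⟩ := h
  obtain ⟨α, α', a1, a2, a3⟩ := wA_comm
  have o : Odd (orderOf b) := by rw [hb]; decide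
  have o' := odd_prm orderOf_wA (by decide)
  obtain ⟨g, k⟩ := Leech.exists_lf π (mem_cent1.2 (hc z M.mem (mem_cent1_comm.1 l.1)))
  have e : pj g * pj (prm wA) * (pj g)⁻¹ = (pj (prm wA))⁻¹ := by
    have := (k.mul l).mul k.inv
    rw [ht] at this
    simpa only [map_mul, map_inv] using this.pj_eq l.inv
  have f : ∀ x : Lt, prm wA • x = x → g • x = x := fun x hx => by
    obtain ⟨v, rfl⟩ := cl_surj x
    obtain ⟨q, hq⟩ := M.ex v
    exact mem_St_iff.1 (M.mem_St hq k (mem_cent1.2 (hc q (M.memQ hq) ((M.fix_iff hq l o).2 hx))))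
  have key : ∀ c : Co0, Commute c (prm wA) → ∃ κ ∈ zpowers (pj (prm wA)),
      pj g * pj c * (pj g)⁻¹ = pj c * κ := fun c hc => by
    have p : Commute (g * c * g⁻¹) (prm wA) := commute_of_pj o' (by
      have := (commute_conj_iff (pj g)).2 (hc.map pj).inv_right
      rwa [← conj_inv, e, inv_inv, ← map_inv, ← map_mul, ← map_mul] at this)
    refine ⟨_, (h1 ⟨c⁻¹ * (g * c * g⁻¹), mem_cent1.2 (hc.inv_left.mul_left p)⟩).1 (h2 _ fun x hx => ?_),
      by simp only [map_mul, map_inv, mul_inv_cancel_left]⟩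
    have i := (orbit_fix hx).1
    change (c⁻¹ * (g * c * g⁻¹)) • x = x
    rw [mul_smul, mul_smul, mul_smul, inv_smul_eq_iff.2 (f x i).symm, f (c • x)
      (by rw [← mul_smul, ← hc.eq, mul_smul, i]), inv_smul_smul]
  obtain ⟨_, ⟨i, rfl⟩, b1⟩ := key _ (a1.map prm)
  obtain ⟨_, ⟨j, rfl⟩, b2⟩ := key _ (a2.map prm)
  have c1 := (a1.map prm).map pj
  have c2 := (a2.map prm).map pj
  have c3 := congrArg (fun x => pj (prm x)) a3
  simp only [map_mul, map_inv] at c3 b1 b2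
  have : (pj (prm wA))⁻¹ = pj (prm wA) := by
    generalize pj (prm wA) = Y at *
    generalize pj (prm α) = A at *
    generalize pj (prm α') = B at *
    generalize pj g = Z at *
    calc Y⁻¹ = Z * (A * B * A⁻¹ * B⁻¹) * Z⁻¹ := by rw [c3, e]
      _ = (A * Y ^ i) * (B * Y ^ j) * (A * Y ^ i)⁻¹ * (B * Y ^ j)⁻¹ := by rw [← b1, ← b2]; group
      _ = A * (Y ^ i * B) * (Y ^ j * (Y ^ i)⁻¹ * A⁻¹) * (Y ^ j)⁻¹ * B⁻¹ := by group
      _ = A * (B * Y ^ i) * (A⁻¹ * (Y ^ j * (Y ^ i)⁻¹)) * (Y ^ j)⁻¹ * B⁻¹ := by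
        rw [(c2.zpow_right i).eq, ((c1.zpow_right j).mul_right (c1.zpow_right i).inv_right).inv_left.eq]
      _ = A * B * (Y ^ i * A⁻¹) * (Y ^ i)⁻¹ * B⁻¹ := by group
      _ = Y := by rw [← (c1.zpow_right i).inv_left.eq, ← c3]; group
  rw [← map_inv, ← map_inv] at this
  have := pj_prm_inj this
  have o := orderOf_dvd_of_pow_eq_one (show wA ^ 2 = 1 by rw [sq, ← mul_inv_cancel wA, this])
  rw [orderOf_wA] at o
  omega

end Cfsg.Agent.P24
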