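import Cfsg.Agent.Fi.Step3
import Cfsg.Agent.Fi.T3b
import Cfsg.Agent.Fi.LcKit

/-! # One step of the identification of a presented Fischer group -/

set_option autoImplicit false

namespace Cfsg.Agent.P24

open Cfsg.Agent.Fi Cfsg.Agent.TT Cfsg.Agent.TT.Wd Subgroup

variable {P G : Type*} [Group P] [Group G] {φ : P →* G} {v : ℕ → P} {β : ℕ → G} {H : Subgroup P}
  {ls gs fs hs : List ℕ} {R A Q : ℕ → ℕ → ℕ} {i j inf c g0 NE hi N : ℕ} {S : Set G} {pg : ℕ → ℕ}
  {Ws : List (List ℕ × ℕ)} {g h x k : P} {a y : G}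

/-- subgroup generated by some letters -/
def gn (v : ℕ → P) (ls : List ℕ) : Subgroup P := closure {x | ∃ i ∈ ls, x = v i}

theorem gn_mem (h : i ∈ ls) : v i ∈ gn v ls := subset_closure ⟨i, h, rfl⟩

theorem ev_in : ∀ {w : List ℕ}, (∀ i ∈ w, v i ∈ H) → ev v w ∈ H
  | [], _ => one_mem _
  | i :: _, h => mul_mem (h i List.mem_cons_self) (ev_in fun j hj => h j (List.mem_cons_of_mem _ hj))

theorem ev_gn {w : List ℕ} (h : ∀ i ∈ w, i ∈ ls) : ev v w ∈ gn v ls := ev_in fun i hi => gn_mem (h i hi)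

theorem gn_le (h : ∀ i ∈ ls, v i ∈ H) : gn v ls ≤ H :=
  (closure_le _).2 (by rintro _ ⟨i, hi, rfl⟩; exact h i hi)

theorem gn_word (hsq : ∀ i ∈ ls, v i * v i = 1) (hg : g ∈ gn v ls) :
    ∃ w : List ℕ, (∀ i ∈ w, i ∈ ls) ∧ ev v w = g := by
  induction hg using closure_induction with
  | mem x hx => obtain ⟨i, hi, rfl⟩ := hx; exact ⟨[i], by simpa using hi, by simp [ev]⟩
  | one => exact ⟨[], by simp, rfl⟩
  | mul x y _ _ a b =>
    obtain ⟨u, a1, rfl⟩ := a
    obtain ⟨w, b1, rfl⟩ := b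
    exact ⟨u ++ w, fun i hi => (List.mem_append.1 hi).elim (a1 i) (b1 i), ev_append _ _⟩
  | inv x _ a =>
    obtain ⟨u, a1, rfl⟩ := a
    exact ⟨u.reverse, fun i hi => a1 i (List.mem_reverse.1 hi), ev_rev fun i hi => hsq i (a1 i hi)⟩

theorem phi_ev {w : List ℕ} (h : ∀ i ∈ w, φ (v i) = β (gp i)) : φ (ev v w) = ev (gv β) w := by
  rw [← ev_hom]; exact ev_congr h

theorem map_gn (h : ∀ i ∈ ls, φ (v i) = β (gp i)) : (gn v ls).map φ = gen β ls := by
  rw [gn, gen, MonoidHom.map_closure]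
  congr 1
  ext y
  constructor
  · rintro ⟨_, ⟨i, hi, rfl⟩, rfl⟩; exact ⟨i, hi, h i hi⟩
  · rintro ⟨i, hi, rfl⟩; exact ⟨_, ⟨i, hi, rfl⟩, h i hi⟩

theorem comm_ev : ∀ {w : List ℕ}, (∀ i ∈ w, Commute (v i) g) → Commute (ev v w) g
  | [], _ => Commute.one_left _
  | i :: _, h => (h i List.mem_cons_self).mul_left (comm_ev fun j hj => h j (List.mem_cons_of_mem _ hj))

theorem comm_gn (h1 : ∀ i ∈ ls, Commute (v i) g) (h2 : h ∈ gn v ls) : Commute h g :=
  mem_centralizer_singleton_iff.1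
    (gn_le (H := centralizer {g}) (fun i hi => mem_centralizer_singleton_iff.2 (h1 i hi)) h2)

/-- injectivity on a subgroup -/
def Inj (φ : P →* G) (H : Subgroup P) : Prop := ∀ g ∈ H, φ g = 1 → g = 1

theorem Inj.eq (I : Inj φ H) (h1 : g ∈ H) (h2 : h ∈ H) (e : φ g = φ h) : g = h :=
  mul_inv_eq_one.1 (I _ (mul_mem h1 (inv_mem h2)) (by rw [map_mul, map_inv, e, mul_inv_cancel]))

theorem Inj.mono {K : Subgroup P} (I : Inj φ H) (h : K ≤ H) : Inj φ K := fun g hg => I g (h hg)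

theorem inj_of_card [Finite H] (h : Nat.card H ≤ Nat.card (H.map φ)) : Inj φ H := by
  have hb := (φ.subgroupMap_surjective H).bijective_of_nat_card_le h
  intro g hg e
  have := hb.1 (a₁ := ⟨g, hg⟩) (a₂ := 1) (Subtype.ext (by simpa using e))
  exact congrArg Subtype.val this

/-- the Coxeter relator of two letters -/
noncomputable def cxw (R : ℕ → ℕ → ℕ) (i j : ℕ) : List ℕ :=
  @Bool.rec (fun _ => List ℕ) [i, j, i, j, i, j] [i, j, i, j] (Nat.beq (pt (R i (gp j))) (gp j))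

theorem cwok_ok {w : List ℕ} (hq : v i * v i = 1) (hi : i ∈ gs) (hc : ∀ j ∈ gs, ev v (cxw R i j) = 1)
    (h : cwok R gs i j w = true) : (∀ a ∈ w, a ∈ gs) ∧ ev v (i :: w) = 1 := by
  unfold cwok at h
  rw [bor_iff, band_iff, lmem_iff] at h
  rcases h with h | ⟨hj, h⟩
  · rw [weq_eq h]
    exact ⟨by simpa using hi, by simp [ev, hq]⟩
  · have := hc j hj
    unfold cxw at this
    cases hb : Nat.beq (pt (R i (gp j))) (gp j) with
    | true => rw [hb] at h this; rw [weq_eq h]; exact ⟨by simp [hi, hj], this⟩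
    | false => rw [hb] at h this; rw [weq_eq h]; exact ⟨by simp [hi, hj], this⟩

/-- the setting of a step -/
structure Su (φ : P →* G) (v : ℕ → P) (β : ℕ → G) (R : ℕ → ℕ → ℕ) (fs : List ℕ) (hi : ℕ)
    (S : Set G) : Prop where
  lab : Lab R fs hi S β
  hv : ∀ i ∈ fs, φ (v i) = β (gp i)
  sq : ∀ i ∈ fs, v i * v i = 1
  cx : ∀ i ∈ fs, ∀ j ∈ fs, ev v (cxw R i j) = 1

theorem Su.inv (U : Su φ v β R fs hi S) (h : i ∈ fs) : (v i)⁻¹ = v i :=
  inv_eq_of_mul_eq_one_right (U.sq i h)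

theorem Su.comm (U : Su φ v β R fs hi S) (h1 : i ∈ fs) (h2 : j ∈ fs) (h : pt (R i (gp j)) = gp j) :
    Commute (v i) (v j) := by
  have := U.cx i h1 j h2
  rw [cxw, (beq_iff _ _).2 h] at this
  simp only [ev, mul_one] at this
  rw [← mul_assoc] at this
  have := eq_inv_of_mul_eq_one_left this
  rwa [mul_inv_rev, U.inv h1, U.inv h2] at this

theorem Su.braid (U : Su φ v β R fs hi S) (h1 : i ∈ fs) (h2 : j ∈ fs) (h : pt (R i (gp j)) ≠ gp j) :
    v i * v j * v i = v j * v i * v j := by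
  have := U.cx i h1 j h2
  rw [cxw, (beq_false _ _).2 h] at this
  simp only [ev, mul_one] at this
  rw [← mul_assoc, ← mul_assoc] at this
  have := eq_inv_of_mul_eq_one_left this
  rw [mul_inv_rev, mul_inv_rev, U.inv h1, U.inv h2] at this
  exact this

/-- the neighbour over `y` is fixed by `k` -/
def N4 (φ : P →* G) (H : Subgroup P) (x k : P) (a y : G) : Prop :=
  ∃ h ∈ H, y = φ h * a * (φ h)⁻¹ ∧ (h * x)⁻¹ * (k * (h * x)) ∈ H

/-- the stabiliser condition -/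
def K2 (φ : P →* G) (H : Subgroup P) (x : P) (a : G) : Prop :=
  ∀ h ∈ H, Commute (φ h) a → x⁻¹ * h * x ∈ H

theorem K2.eq (K : K2 φ H x a) (h1 : g ∈ H) (h2 : h ∈ H)
    (e : φ g * a * (φ g)⁻¹ = φ h * a * (φ h)⁻¹) : ((g * x : P) : P ⧸ H) = (h * x : P) := by
  rw [QuotientGroup.eq]
  have := K (g⁻¹ * h) (mul_mem (inv_mem h1) h2) (by
    rw [Commute, SemiconjBy, map_mul, map_inv]
    calc _ = (φ g)⁻¹ * (φ h * a * (φ h)⁻¹) * φ h := by group
      _ = _ := by rw [← e]; group)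
  convert this using 1
  group

theorem N4.conj (n : N4 φ H x k a y) (h1 : g ∈ H) (h2 : Commute g k) :
    N4 φ H x k a (φ g * y * (φ g)⁻¹) := by
  obtain ⟨h, a1, rfl, a2⟩ := n
  refine ⟨g * h, mul_mem h1 a1, by rw [map_mul]; group, ?_⟩
  convert a2 using 1
  calc _ = (h * x)⁻¹ * (g⁻¹ * (k * g)) * (h * x) := by group
    _ = _ := by rw [← h2.eq]; group

theorem N4.comm (I : Inj φ H) {l a' : P} (hl : ∀ h ∈ H, Commute h l) (ha : a' ∈ H)
    (hx : x * l * x⁻¹ = a') (hg : g ∈ H) (n : N4 φ H x k (φ a') (φ g)) : Commute g k := by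
  obtain ⟨h, a1, a2, a3⟩ := n
  obtain rfl : g = h * a' * h⁻¹ :=
    I.eq hg (mul_mem (mul_mem a1 ha) (inv_mem a1)) (by rw [a2, map_mul, map_mul, map_inv])
  have := (hl _ a3).eq
  rw [← hx, Commute, SemiconjBy]
  calc _ = h * x * (l * ((h * x)⁻¹ * (k * (h * x)))) * (h * x)⁻¹ := by group
    _ = _ := by rw [← this]; group

theorem N4.word (L : Acts R gs N β) (hl : ∀ i ∈ ls, i ∈ gs ∧ v i ∈ H ∧ Commute (v i) k ∧
    φ (v i) = β (gp i)) {w : List ℕ} (hw : ∀ i ∈ w, i ∈ ls) {p : ℕ} (hp : p < N) :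
    N4 φ H x k a (β (app R w p)) ↔ N4 φ H x k a (β p) := by
  have e := (L.word (fun i hi => (hl i (hw i hi)).1) hp).2
  rw [← phi_ev (φ := φ) (v := v) fun i hi => (hl i (hw i hi)).2.2.2] at e
  have m : ev v w ∈ H := ev_in fun i hi => (hl i (hw i hi)).2.1
  have cm : Commute (ev v w) k := comm_ev fun i hi => (hl i (hw i hi)).2.2.1
  refine ⟨fun n => ?_, fun n => ?_⟩
  · convert n.conj m cm using 1
    rw [e]; group
  · convert n.conj (inv_mem m) cm.inv_left using 1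
    rw [e, map_inv, inv_inv]

theorem step (T : TabOk R A Q hs gs fs inf c g0 NE hi pg Ws) (U : Su φ v β R fs hi S)
    (I : Inj φ (gn v gs)) (hgs : ∀ i ∈ gs, gp i ≤ NE) (hg0 : gp g0 < NE)
    (K : K2 φ (gn v gs) (ev v [c, g0, inf, c]) (β (gp g0)))
    (T1 : ∀ q < NE, ∃ h ∈ gn v gs, β q = φ h * β (gp g0) * (φ h)⁻¹)
    (hN : ∀ q < NE, pt (R c q) = q → N4 φ (gn v gs) (ev v [c, g0, inf, c]) (v c) (β (gp g0)) (β q))
    (hW : ∀ p ∈ Ws, (∀ a ∈ p.1, a ∈ gs) ∧
      ((p.2 = 0 ∧ ev v p.1 = 1) ∨ (p.2 = NE + 2 ∧ Commute (ev v p.1) (v c)))) :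
    Inj φ (gn v fs) := by
  have gf : ∀ i ∈ gs, i ∈ fs := fun i hi => (T.fs_iff i).2 (Or.inl hi)
  have hc : c ∈ fs := (T.fs_iff c).2 (Or.inr rfl)
  have hf : inf ∈ gs := (T.gs_iff inf).2 (Or.inr rfl)
  have h0 : g0 ∈ gs := (T.gs_iff g0).2 (Or.inl T.g0m)
  have cl : ∀ h ∈ gn v gs, Commute h (v inf) := fun h => comm_gn fun i hi =>
    (U.comm (gf _ hf) (gf i hi) (T.Rinf _ (hgs i hi))).symm
  have lt := T.lt
  choose! t t1 t2 using T1
  obtain ⟨Cl, Cw, Sp, Sd, h1, h2, h3⟩ := T.tc1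
  have hlo : om6 v A pg gs (NE + 1) = 1 := by rw [om6, if_neg fun h => T.pglo h.1]
  have key := tc_sound (Ω := P ⧸ gn v gs) (v := v)
    (ω := fun q => ((om6 v A pg gs q * (v inf * v c) : P) : P ⧸ gn v gs)) (r := A) (lo := NE + 1)
    (hi := hi) gs gs (fun i hi => U.sq i (gf i hi)) (fun i hi => Or.inl hi) Cl Cw
    (fun i hi j hj => by
      obtain ⟨b1, b2⟩ := cwok_ok (U.sq i (gf i hi)) hi (fun j hj => U.cx i (gf i hi) j (gf j hj))
        (h1 i hi j hj).2
      exact ⟨(h1 i hi j hj).1, b1, fun x => by rw [b2, one_smul]⟩) Sp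
    (fun i hi q _ _ e hs => by
      obtain ⟨b1, b2⟩ := h2 i hi _ _ hs
      rw [om6, if_pos (by rw [b1, e]; exact ⟨hi, b2⟩), b1, e, MulAction.Quotient.smul_coe, smul_eq_mul,
        ← mul_assoc, ← mul_assoc (v i), U.sq i (gf i hi), one_mul]) Ws Sd
    (fun p hp => ⟨(hW p hp).1, fun m hm => by
      rcases (hW p hp).2 with ⟨-, e⟩ | ⟨e1, e⟩
      · rw [e, one_smul]
      · obtain rfl : m = NE + 1 := by omega
        have m := ev_gn (v := v) (hW p hp).1
        rw [hlo, MulAction.Quotient.smul_coe, smul_eq_mul, one_mul, eq_comm, QuotientGroup.eq,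
          ((cl _ m).mul_right e).eq, inv_mul_cancel_left]
        exact m⟩) h3
  set x := ev v [c, g0, inf, c] with hx
  let ω : ℕ → P ⧸ gn v gs := fun q => if q < NE then (t q * x : P) else if q = NE then (1 : P)
    else (om6 v A pg gs q * (v inf * v c) : P)
  have o1 : ∀ q < NE, ω q = (t q * x : P) := fun q hq => if_pos hq
  have o2 : ω NE = (1 : P) := by simp [ω]
  have o3 : ∀ q, NE < q → ω q = (om6 v A pg gs q * (v inf * v c) : P) := fun q hq => by
    simp only [ω]; rw [if_neg (by omega), if_neg (by omega)]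
  have o4 : ω (NE + 1) = (v inf * v c : P) := by rw [o3 _ (by omega), hlo, one_mul]
  have far : ∀ i ∈ gs, ∀ q, NE < q → q < hi → NE < pt (R i q) ∧ v i • ω (pt (R i q)) = ω q := by
    intro i hi' q a1 a2
    obtain ⟨⟨b1, b2, b3⟩, -⟩ := key i hi' q a1 a2
    rw [T.RA i hi' q a1, o3 _ b1, o3 _ a1]
    exact ⟨b1, b3⟩
  have rN : ∀ i ∈ gs, pt (R i NE) = NE := fun i hi' => ((T.gs_iff i).1 hi').elim (T.RNE i)
    fun e => e ▸ T.Rinf _ le_rfl
  have e1 : ∀ i ∈ gs, ∀ q < hi, pt (R i q) < hi ∧ v i • ω (pt (R i q)) = ω q := by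
    intro i hi' q hq
    obtain ⟨a1, a2⟩ := U.lab.act i (gf i hi') q hq
    have s := U.lab.gsq (gf i hi')
    have bk : β q = β (gp i) * β (pt (R i q)) * β (gp i) := by
      rw [a2, ← mul_assoc, ← mul_assoc, s, one_mul, mul_assoc, s, mul_one]
    have iv : pt (R i (pt (R i q))) = q := U.lab.inj _ (U.lab.act i (gf i hi') _ a1).1 _ hq
      (by rw [(U.lab.act i (gf i hi') _ a1).2, ← bk])
    refine ⟨a1, ?_⟩
    rcases lt_trichotomy q NE with b | rfl | b
    · have b' : pt (R i q) < NE := by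
        rcases lt_trichotomy (pt (R i q)) NE with d | d | d
        · exact d
        · rw [d, rN i hi'] at iv; omega
        · have := (far i hi' _ d a1).1; omega
      rw [o1 _ b, o1 _ b', MulAction.Quotient.smul_coe, smul_eq_mul, ← mul_assoc]
      refine K.eq (mul_mem (gn_mem hi') (t1 _ b')) (t1 _ b) ?_
      rw [← t2 _ b, bk, t2 _ b', map_mul, U.hv i (gf i hi'), mul_inv_rev,
        U.lab.inv (U.lab.gpl i (gf i hi'))]
      group
    · rw [rN i hi', o2, MulAction.Quotient.smul_coe, smul_eq_mul, mul_one, eq_comm, QuotientGroup.eq]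
      simpa using gn_mem hi'
    · exact (far i hi' q b hq).2
  have inv' : ∀ i ∈ fs, ∀ {a b : P ⧸ gn v gs}, v i • a = b → a = v i • b := fun i hi a b e => by
    rw [← e, ← mul_smul, U.sq i hi, one_smul]
  obtain ⟨clc, cwc, spc, a1, a2, a3⟩ := T.tc2
  have key2 := tc_sound (v := v) (ω := ω) (r := Q) (lo := 0) (hi := hi) [c] fs
    (fun i hi => by rw [List.mem_singleton.1 hi]; exact U.sq c hc)
    (fun i hi => by
      rcases (T.fs_iff i).1 hi with h | rfl
      · refine Or.inr fun q _ hq => ⟨Nat.zero_le _, ?_⟩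
        rw [T.PR i hi]
        exact e1 i h q hq
      · exact Or.inl List.mem_cons_self) (fun _ => clc) (fun _ => cwc)
    (fun i hi j hj => by
      obtain rfl := List.mem_singleton.1 hi
      obtain ⟨b1, b2⟩ := cwok_ok (U.sq i hc) hc (U.cx i hc) (a1 j hj).2
      exact ⟨(a1 j hj).1, b1, fun x => by rw [b2, one_smul]⟩) (fun _ => spc)
    (fun i hi q _ _ _ hs => by
      obtain rfl := List.mem_singleton.1 hi
      rw [T.PR i hc] at hs ⊢
      rcases a2 _ _ hs with ⟨e, h⟩ | rfl | rfl | rfl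
      · obtain ⟨h', b1, b2, b3⟩ := hN q h e.symm
        rw [← e, o1 _ h, K.eq (t1 _ h) b1 (by rw [← t2 _ h, b2]), MulAction.Quotient.smul_coe,
          smul_eq_mul, eq_comm, QuotientGroup.eq]
        exact b3
      · rw [T.cc, o4, MulAction.Quotient.smul_coe, smul_eq_mul, ← mul_assoc,
          U.braid hc (gf _ hf) (by rw [T.gpinf]; exact T.cinf'), eq_comm, QuotientGroup.eq,
          inv_mul_cancel_left]
        exact gn_mem hf
      · rw [T.cinf, inv' _ (gf _ hf) (e1 _ hf _ lt).2, o4, o2, MulAction.Quotient.smul_coe,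
          MulAction.Quotient.smul_coe, smul_eq_mul, smul_eq_mul, ← mul_assoc (v inf),
          U.sq _ (gf _ hf), one_mul, U.sq _ hc]
      · rw [T.cg0, inv' _ (gf _ h0) (e1 _ h0 _ lt).2, o4, o1 _ hg0,
          K.eq (t1 _ hg0) (one_mem _) (by rw [← t2 _ hg0]; simp), MulAction.Quotient.smul_coe,
          MulAction.Quotient.smul_coe, smul_eq_mul, smul_eq_mul, hx]
        simp [ev]) [] (fun _ _ => 0) (by simp)
    (fun i hi => by rw [List.mem_singleton.1 hi]; exact a3) c List.mem_cons_self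
  intro g hg e
  obtain ⟨w, w1, rfl⟩ := gn_word U.sq hg
  obtain ⟨-, -, b⟩ := ok_act (v := v) (ω := ω) (r := R) (lo := 0) (hi := hi) (gs := fs)
    (fun i hi q _ hq => by
      refine ⟨Nat.zero_le _, ?_⟩
      rcases (T.fs_iff i).1 hi with h | rfl
      · exact e1 i h q hq
      · obtain ⟨⟨-, b2, b3⟩, -⟩ := key2 q (Nat.zero_le _) hq
        rw [T.PR i hc] at b2 b3
        exact ⟨b2, b3⟩) w1 (Nat.zero_le NE) (by omega)
  obtain ⟨d1, d2⟩ := U.lab.word (p := NE) w1 (by omega)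
  rw [← phi_ev (φ := φ) (v := v) fun i hi => U.hv i (w1 i hi), e] at d2
  rw [U.lab.inj _ d1 NE (by omega) (by simpa using d2), o2, MulAction.Quotient.smul_coe, smul_eq_mul,
    mul_one, eq_comm, QuotientGroup.eq] at b
  exact I _ (by simpa using b) e

end Cfsg.Agent.P24
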