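import Cfsg.Agent.P24.L23
import Cfsg.Agent.Fi.LcE
import Cfsg.Agent.Fi.I24
import Cfsg.Prelude.Def_Spor_Fi24

/-! # The presented group `Fi₂₄` -/

set_option autoImplicit false

namespace Cfsg.Agent.P24

open Cfsg.Agent.Fi Cfsg.Agent.TT Cfsg.Agent.TT.Wd Cfsg.Agent.TC Subgroup

section
variable {P : Type} {G : Type*} [Group P] [Group G] {φ : P →* G} {v : ℕ → P} {β : ℕ → G}
  {H : Subgroup P} {D : Set G} {i j p q : ℕ} {w u ls gs ks : List ℕ} {h x : P} {g a : G}

theorem Cx.injH (C : Cx φ v D β) : Inj φ (gn v gs24) :=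
  C.inj23.mono (gn_le fun i hi => C.lm (mp := fs23) (by decide +kernel) i (by revert i; decide))

theorem Cx.trH (C : Cx φ v D β) : Tr v gs24 := C.tr C.injH fun _ => gn_mem

/-- longest element of a chain of nine letters -/
def w10 : List ℕ := [8, 9, 8, 0, 9, 8, 1, 0, 9, 8, 2, 1, 0, 9, 8, 3, 2, 1, 0, 9, 8, 4, 3, 2, 1, 0, 9,
  8, 11, 4, 3, 2, 1, 0, 9, 8, 10, 11, 4, 3, 2, 1, 0, 9, 8]

theorem Cx.k24 (C : Cx φ v D β) : K2 φ (gn v gs24) (ev v [13, 8, 12, 13]) (β (gp 8)) := by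
  refine Cx.k2 (β := β) (ks := fs22) C.injH (φ (ev v w10)) (fun h h1 h2 => ?_) fun i hi => ?_
  · rw [← C.h.cent2, mem_centralizer_iff]
    rintro _ (rfl | rfl)
    · exact C.cc (q := 31671) (by decide +kernel) (C.cg (by decide +kernel) h1)
    · exact C.cc (by decide +kernel) h2
  · by_cases e : i = 5
    · exact e ▸ C.hk' C.trA (t := u7) (j := 0) (s := tw [1, 2, 5, 1, 9, 0, 8, 9] 0)
        (by decide +kernel)
    · exact C.hk (by revert i; decide +kernel)

theorem Cx.t1 (C : Cx φ v D β) {y : G} (hy : y ∈ perp D (β 31671)) :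
    ∃ h ∈ gn v gs24, y = φ h * β (gp 8) * (φ h)⁻¹ := by
  obtain ⟨g, a, b⟩ := C.h.lab23.exists_conj hy (p := gp 8) (by decide +kernel)
  rw [C.h.lab23.closure_eq] at a
  obtain ⟨h, c, rfl⟩ := C.lift (gs := gs24) (by decide) (gen_mono6 (by decide) a)
  exact ⟨h, c, b⟩

theorem Cx.xl (C : Cx φ v D β) : ev v [13, 8, 12, 13] * v 12 * (ev v [13, 8, 12, 13])⁻¹ = v 8 := by
  have := C.trA.eq C (w := [13, 8, 12, 13] ++ [12]) (w' := 8 :: [13, 8, 12, 13]) (by decide +kernel)
  rw [ev_append, ev_one] at this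
  rw [this, ev, mul_inv_cancel_right]

theorem Cx.cv (C : Cx φ v D β) : Cv φ (gn v gs24) D (ev v [13, 8, 12, 13]) (ev v [9, 0, 8, 9])
    (β 31671) (β (gp 8)) where
  t3 := C.h.t3
  lm := C.h.mem _ (by decide)
  am := C.h.lab23.mem _ (by decide +kernel)
  hl h hh := C.cg (by decide +kernel) hh
  x2 := by rw [← ev_append]; exact C.trA _ (by decide +kernel)
  xa := C.cj (by decide +kernel)
  k2 := C.k24
  t1 _ := C.t1
  h0m := ev_gn (by decide)
  tri := by simp only [← ev_append]; exact C.trA.eq C (by decide +kernel)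
  t2 y hy := by
    have e1 := C.cj (u := w10) (p := 31671) (q := 31671) (by decide +kernel)
    have e2 := C.cj (u := w10) (p := 3510) (q := gp 8) (by decide +kernel)
    have e3 := C.cj (u := w10) (p := 105) (q := 0) (by decide +kernel)
    have e4 := C.cj (u := [9, 0, 8, 9]) (p := gp 8) (q := 0) (by decide +kernel)
    set e := φ (ev v w10)
    obtain ⟨g, a, b⟩ := C.h.lab22.exists_conj (x := e⁻¹ * y * e) (p := 105)
      ⟨perp_cj C.h.t3 e (e1.symm ▸ hy.1), (perp_cj C.h.t3 e (e2.symm ▸ ⟨hy.1.1, hy.2⟩)).2⟩ (by decide)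
    rw [C.h.lab22.closure_eq, ← C.h.cent2, mem_centralizer_iff] at a
    have k : ∀ {s t : G}, s * g = g * s → e * s * e⁻¹ = t → Commute (e * g * e⁻¹) t := by
      rintro s _ c rfl
      calc _ = e * (g * s) * e⁻¹ := by group
        _ = _ := by rw [← c]; group
    obtain ⟨h, c, d⟩ := C.lift (gs := gs24) (g := e * g * e⁻¹) (by decide) (gen_mono6 (by decide)
      (C.h.cent ▸ mem_centralizer_singleton_iff.2 (k (a _ (by simp)) e1)))
    refine ⟨h, c, d ▸ k (a _ (by simp)) e2, ?_⟩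
    rw [map_mul, d]
    calc y = e * (e⁻¹ * y * e) * e⁻¹ := by group
      _ = e * g * e⁻¹ * (e * β 105 * e⁻¹) * (e * g * e⁻¹)⁻¹ := by rw [b]; group
      _ = _ := by rw [e3, ← e4]; group

theorem Cx.nb (C : Cx φ v D β) :
    N4 φ (gn v gs24) (ev v [13, 8, 12, 13]) (v 13) (β (gp 8)) (β 694) :=
  C.n4 C.trA (u := [8, 9]) (j := 9) (by decide +kernel)

theorem Cx.nz (C : Cx φ v D β) :
    N4 φ (gn v gs24) (ev v [13, 8, 12, 13]) (v 13) (β (gp 8)) (β 29698) := by
  have V := C.cv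
  have fx : ∀ {w : List ℕ}, (∀ i ∈ w, i ∈ gs24) → ev v w • ((1 : P) : P ⧸ gn v gs24) = (1 : P) :=
    fun hw => by
      rw [MulAction.Quotient.smul_coe, smul_eq_mul, mul_one, ← one_mul (ev v _), mk_mul (ev_gn hw)]
  have p1 : prj φ (β 31671) ((1 : P) : P ⧸ gn v gs24) = β 31671 := by rw [V.prj_mk]; simp
  obtain ⟨y, y1, y2⟩ := V.surj (u := (1 : P)) (y := β 694) (p1.symm ▸ C.h.lab23.mem _ (by decide))
  have y3 := y1.smul (v 13)
  rw [(V.n4_iff y1).1 (y2 ▸ C.nb)] at y3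
  have y4 := y1.smul (ev v [12, 1, 0, 9, 8])
  rw [fx (by decide)] at y4
  have ee : ev v (12 :: (P24.cw ++ [12])) • ((1 : P) : P ⧸ gn v gs24) =
      ev v [12, 1, 0, 9, 8] • v 13 • ((1 : P) : P ⧸ gn v gs24) := by
    rw [show 12 :: (P24.cw ++ [12]) = [12, 1, 0, 9, 8] ++ 13 :: [12, 1, 2, 3, 4, 11, 1, 5, 6, 12] from rfl,
      ev_append, mul_smul, show ∀ w, ev v (13 :: w) = v 13 * ev v w from fun _ => rfl, mul_smul,
      fx (w := [12, 1, 2, 3, 4, 11, 1, 5, 6, 12]) (by decide)]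
  have W := V.per C.h.toLab (e := ev v (12 :: (P24.cw ++ [12]))) (by decide)
    (by rw [C.pev (by decide), ← C.h.rev (by decide)]; rfl) zw_ok (by decide) (by decide) y4
    (ee ▸ V.symm (y3.smul _)) (by rw [V.prj_smul, y2]; exact C.cj (by decide +kernel))
    (by rw [V.prj_smul, p1]; exact C.cj (by decide +kernel))
  have ez : ev v (12 :: (P24.cw ++ [12])) ^ (16 + 1) = 1 := by
    rw [show ev v (12 :: (P24.cw ++ [12])) = v 12 * ev v P24.cw * (v 12)⁻¹ by
      rw [ev, ev_append, ev_one, C.su24.inv (by decide), mul_assoc], conj_pow, C.r.z, mul_one,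
      mul_inv_cancel]
  rw [ez, one_smul] at W
  refine V.four (V.mvs C.h.toLab (by decide) p1 zm_ok W) C.nb ?_ ?_
  · rw [← ev_one v 13]; exact (C.cj (by decide +kernel)).symm
  · exact C.cg (ls := [13]) (by decide +kernel) (gn_mem (by simp))

theorem Cx.n24 (C : Cx φ v D β) (hq : q < 31671) (e : pt (R24 13 q) = q) :
    N4 φ (gn v gs24) (ev v [13, 8, 12, 13]) (v 13) (β (gp 8)) (β q) := by
  have hl : ∀ i ∈ [0, 1, 2, 3, 4, 5, 6, 9, 10, 11], i ∈ fs23 ∧ v i ∈ gn v gs24 ∧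
      Commute (v i) (v 13) ∧ φ (v i) = β (gp i) := fun i hi =>
    ⟨by revert i; decide, gn_mem (by revert i; decide),
      C.su24.comm (by revert i; decide) (by decide) (by revert i; decide +kernel),
      C.hv i (by revert i; decide)⟩
  have k := fun w hw => (N4.word (x := ev v [13, 8, 12, 13]) (a := β (gp 8)) C.h.lab23.toActs hl
    (w := w) hw (p := 694) (by decide)).2 C.nb
  refine (orb_sound (Pr := fun q => N4 φ (gn v gs24) (ev v [13, 8, 12, 13]) (v 13) (β (gp 8)) (β q))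
    (fun w hw q hq => ?_) orbE13 q hq).2 ?_
  · have m : ∀ i ∈ w, i ∈ [0, 1, 2, 3, 4, 5, 6, 9, 10, 11] := fun i hi =>
      (by decide : ∀ i ∈ [0, 1, 2, 3, 4, 5, 6, 9, 10], i ∈ [0, 1, 2, 3, 4, 5, 6, 9, 10, 11]) i
        (mem_wds hw i hi)
    exact ⟨(C.h.lab23.word (fun i hi => (hl i (m i hi)).1) hq).1,
      (N4.word C.h.lab23.toActs hl m hq).1⟩
  · have := fin_true (finE13_chk q (Nat.zero_le _) hq) ((Fi.beq_iff _ _).2 e)
    simp only [List.mem_cons, List.not_mem_nil, or_false] at this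
    rcases this with h | h | h | h <;> rw [h]
    · convert (N4.word C.h.lab23.toActs hl (w := [1, 2, 3, 4, 5, 1]) (by decide) (by decide)).2 C.nz
        using 2
      decide +kernel
    · convert k [0, 1, 2, 3, 4, 9, 0, 1, 2, 3, 11, 4] (by decide) using 2; decide +kernel
    · convert k [0, 1, 2, 9, 0, 1] (by decide) using 2; decide +kernel
    · convert k [0, 1, 2, 3, 4, 9, 0, 1, 2, 3, 11, 4, 10, 11] (by decide) using 2; decide +kernel

theorem Cx.inj24 (C : Cx φ v D β) : Inj φ (gn v fs24) := by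
  refine step tab24 C.su24 C.injH (by decide +kernel) (by decide +kernel) C.k24
    (fun q hq => C.t1 (C.h.lab23.mem q hq)) (fun q => C.n24) fun p hp => ?_
  have : ∀ p ∈ Ws24, (∀ a ∈ p.1, a ∈ gs24) ∧ ((p.2 = 0 ∧ trc gs24 p.1 = true) ∨ (p.2 = 31671 + 2 ∧
    (p.1 = w24_10 ∨ p.1 = w24_13 ∨ ∀ j ∈ p.1, j ∈ fs24 ∧ pt (R24 j (gp 13)) = gp 13))) := by
    decide +kernel
  refine (this p hp).imp_right (Or.imp (And.imp_right (C.trH _)) (And.imp_right ?_))
  rintro (e | e | e)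
  · exact e ▸ C.wk C.trH C.trA (t := [9, 0, 1, 2, 5, 1, 0, 9]) (t' := [])
      (y := 8 :: (tw [1, 2, 5, 1, 9, 0, 8, 9] 0 ++ tw u7 0 ++ [12])) (by decide +kernel)
  · refine N4.comm C.injH (fun h => comm_gn fun i hi => C.su24.comm (by revert i; decide) (by decide)
      (by revert i; decide +kernel)) (gn_mem (by decide)) C.xl (ev_gn (this p hp).1) ?_
    rw [e, C.hv 8 (by decide), C.pev (by decide), show w24_13 = tw (w24_13.drop 36) 11 by decide,
      C.h.ev_tw (by decide) (by decide)]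
    exact C.n24 (by decide +kernel) (by decide +kernel)
  · exact C.cw (by decide) e

end

open Cfsg.Spor Cfsg.Spor.Fi24

/-- enumeration of the generators -/
def en (n : ℕ) : Gen := [Gen.c, .d, .e, .f, .g, .h, .i, .c, .a, .b, .c, .j, .l, .k].getD n .c

/-- index of a generator -/
def ix : Gen → ℕ
  | .c => 0 | .d => 1 | .e => 2 | .f => 3 | .g => 4 | .h => 5 | .i => 6 | .a => 8 | .b => 9
  | .j => 11 | .l => 12 | .k => 13

theorem en_ix (x : Gen) : en (ix x) = x := by cases x <;> rfl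

theorem ix_bs (x : Gen) : ix x ∈ bs := by cases x <;> decide

theorem lab_eq : ∀ i ∈ bs, ∀ j ∈ bs, coxLabel Fi24.edges (en i) (en j) = lab i j := by decide

theorem ex_iff {Q : Type*} [Group Q] (v : ℕ → Q) :
    (∀ r ∈ Fi24.extra, FreeGroup.lift (fun x => v (ix x)) r = 1) ↔
      v 12 = ev v lw ∧ ev v cw ^ 17 = 1 := by
  simp [Fi24.extra, lw, cw, ev_pww, ev, ix, mul_assoc, mul_inv_eq_one]

/-- the generators -/
def ov (i : ℕ) : Fi24 := cxo Fi24.edges Fi24.extra (en i)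

/-- the letters -/
def vv (i : ℕ) : Fi24 := if i = 7 then ev ov (tw u7 0) else if i = 10 then ev ov mw else ov i

theorem vv_bs {i : ℕ} (h : i ∈ bs) : vv i = ov i := by
  rw [vv, if_neg (by revert i; decide), if_neg (by revert i; decide)]

theorem ev_vv {w : List ℕ} (h : ∀ i ∈ w, i ∈ bs) : ev vv w = ev ov w := ev_congr fun i hi => vv_bs (h i hi)

theorem rl : Rl vv := by
  have := (ex_iff ov).1 fun r hr => by simpa only [ov, en_ix] using cox_extra hr
  refine ⟨fun i hi j hj => ?_, ?_, ?_, ?_, ?_⟩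
  · rw [vv_bs hi, vv_bs hj, ← lab_eq i hi j hj]
    exact cox_rel (fun x => by cases x <;> decide) _ _
  · rw [vv_bs (by decide), ev_vv (by decide +kernel)]; exact this.1
  · rw [ev_vv (by decide +kernel)]; rfl
  · rw [ev_vv (by decide +kernel)]; rfl
  · rw [ev_vv (by decide)]; exact this.2

theorem iso24 {G : Type*} [Group G] {D : Set G} {β : ℕ → G} (h : Fi.M24 D β) :
    Nonempty (G ≃* Fi24) := by
  have hb : ∀ i ∈ bs, i ∈ fs24 := by decide
  have eq : ∀ {i w}, Fi.relChk R24 fs24 fs24 (i :: w) = true → i ∈ fs24 → gv β i = ev (gv β) w :=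
    fun {i w} c hi => by
      have := h.toModel.rel c
      rwa [ev, mul_eq_one_iff_inv_eq, inv_eq_of_mul_eq_one_right (h.gsq hi)] at this
  obtain ⟨φ, hφ⟩ := cox_lift (edges := Fi24.edges) (extra := Fi24.extra) (fun x => gv β (ix x))
    (fun x y => by
      have : ∀ i ∈ bs, ∀ j ∈ bs, Fi.relChk R24 fs24 fs24 (pww [i, j] (lab i j)) = true := by
        decide +kernel
      have := h.toModel.rel (this _ (ix_bs x) _ (ix_bs y))
      rwa [ev_pww, ← lab_eq _ (ix_bs x) _ (ix_bs y), en_ix, en_ix, ev, ev_one] at this)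
    ((ex_iff (gv β)).2 ⟨eq (by decide +kernel) (by decide),
      by rw [← ev_pww]; exact h.toModel.rel (by decide +kernel)⟩)
  have h1 : ∀ i ∈ bs, φ (ov i) = β (gp i) := fun i hi => by
    rw [ov, hφ, show ix (en i) = i by revert i; decide]
  have C : Cx φ vv D β := ⟨rl, h, fun i hi => by
    by_cases a : i = 7
    · rw [a, vv, if_pos rfl, phi_ev fun i hi => h1 i (by revert i; decide),
        h.ev_tw (by decide) (by decide)]
      exact congrArg β (by decide +kernel)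
    · by_cases b : i = 10
      · rw [b, vv, if_neg (by decide), if_pos rfl, phi_ev fun i hi => h1 i (by revert i; decide +kernel)]
        exact (eq (by decide +kernel) (by decide)).symm
      · have : i ∈ bs := by revert i; decide
        rw [vv_bs this, h1 i this]⟩
  have t : gn vv fs24 = ⊤ := by
    rw [eq_top_iff, ← cox_top, closure_le]
    rintro _ ⟨x, rfl⟩
    have := gn_mem (v := vv) (hb _ (ix_bs x))
    rwa [vv_bs (ix_bs x), ov, en_ix] at this
  refine ⟨(MulEquiv.ofBijective φ ⟨(injective_iff_map_eq_one φ).2 fun g =>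
    C.inj24 g (t ▸ mem_top g), fun g => ?_⟩).symm⟩
  obtain ⟨x, -, e⟩ := C.lift (gs := fs24) (fun _ h => h) (h.toModel.gen_top ▸ mem_top g)
  exact ⟨x, e⟩

end Cfsg.Agent.P24
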